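/- Tensor-induced subgroups: the generic context for symplectic and orthogonal factors. -/
import Cfsg.Agent.H60.WrKit

set_option autoImplicit false

namespace H59.WrBG
open Cfsg Cfsg.Geo Matrix H19 Module H60 H60.Wr
open scoped MatrixGroups

universe u

variable {F : Type u} [Field F] {k t : ℕ} {B : Frm (Fin k) F} {M : Subgroup (GG k t F)}

theorem iso_of_le (hM : M ≤ (B.pow t).Iso) {g : GG k t F} (hg : g ∈ M) {i j : Fin t}
    {J : Submodule F (Fin k → F)} (hJ : ∀ x ∈ J, ∀ y ∈ J, B.f x y = 0) {w : Fin k → F} (hw : w ≠ 0)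
    (h : LS j (F ∙ w) ≤ (LS i J).map (toLin' (g : EE k t F))) : w ∈ IsoV B := by
  obtain ⟨y, hy⟩ := exists_f_one (B := B) hw
  have hm : ∀ z, pv (Function.update (fun _ => z) j w) ∈ LS j (F ∙ w) := fun z => by
    rw [pv_update]; exact (ten k F j).t_mem_LS _ (Submodule.mem_span_singleton_self w)
  obtain ⟨a, ha, ea⟩ := h (hm y)
  obtain ⟨b, hb, eb⟩ := h (hm w)
  have := (B.pow t).mem_Iso.1 (hM hg) a b
  rw [f_LS hJ ha hb, ← toLin'_apply, ← toLin'_apply, ea, eb, f_pv, Finset.prod_eq_single j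
    (fun l _ hl => by simp [hl, hy]) (by simp)] at this
  exact ⟨hw, by simpa using this⟩

theorem exists_eig {X : Mk k F} {v φ : Fin k → F} (hφ : φ ≠ 0) (h : X * ro v φ = ro v φ * X) :
    ∃ c : F, X *ᵥ v = c • v := by
  obtain ⟨z, hz⟩ := exists_dot_one' hφ
  have := congrArg (· *ᵥ z) h
  simp only [← mulVec_mulVec, ro_mulVec, hz, one_smul] at this
  exact ⟨_, this⟩

theorem sc_of_iso (H : BC B M) {X : Mk k F} (h : ∀ v ∈ IsoV B, ∃ c : F, X *ᵥ v = c • v) : Sc X := by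
  have key : ∀ x ∈ IsoV B, ∀ y ∈ IsoV B, B.f x y = 0 → ∀ c : F, X *ᵥ x = c • x → X *ᵥ y = c • y := by
    intro x hx y hy hxy c hc
    by_cases h1 : y ∈ F ∙ x
    · obtain ⟨r, rfl⟩ := Submodule.mem_span_singleton.1 h1
      rw [mulVec_smul, hc, smul_comm]
    obtain ⟨d, hd⟩ := h y hy
    obtain ⟨e, he⟩ := h (x + y) ⟨fun h0 => h1 (by
      rw [eq_neg_of_add_eq_zero_right h0]; exact neg_mem (Submodule.mem_span_singleton_self x)), by
      rw [B.add_left, B.add_right, B.add_right, hx.2, hy.2, hxy, B.eq_zero_comm.1 hxy]; simp⟩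
    rw [mulVec_add, hc, hd] at he
    have h2 : d = e := by
      by_contra h3
      refine h1 (Submodule.mem_span_singleton.2 ⟨(d - e)⁻¹ * (e - c), ?_⟩)
      rw [mul_smul, inv_smul_eq_iff₀ (sub_ne_zero.2 h3)]
      linear_combination (norm := module) -he
    rw [h2, smul_add, add_left_inj] at he
    rw [hd, h2, smul_left_injective F hx.1 he]
  obtain ⟨w, hw⟩ := H.gf.ex
  obtain ⟨c, hc⟩ := h w hw
  have : LinearMap.eqLocus (toLin' X) (c • LinearMap.id) = ⊤ :=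
    eq_top_iff.2 ((H.gf.sp w hw.1).ge.trans (Submodule.span_le.2 fun y hy => by
      obtain ⟨z, hz, h1, h2⟩ := H.gf2.two w hw y hy.1
      exact key z hz y hy.1 h2 c (key w hw z hz (B.eq_zero_comm.1 h1) c hc)))
  exact ⟨c, ext_mulVec fun v => by
    simpa [smul_mulVec] using (this.ge Submodule.mem_top : toLin' X v = (c • LinearMap.id) v)⟩

theorem exists_line (H : BC B M) {w : Fin k → F} (hw : w ∈ IsoV B) :
    ∃ y ∈ IsoV B, B.f y w = 0 ∧ y ∉ F ∙ w := by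
  by_contra h
  have := H.gf2.pp _ hw (show w ∈ pp B w from hw.2)
  rw [Set.eq_empty_of_forall_notMem (s := {y | _}) fun y hy => h ⟨y, hy⟩] at this
  exact hw.1 (by simpa using this)

/-- The fields of `Cx` which do not depend on the root. -/
theorem cx_of (H : BC B M) {ν : Mk k F}
    (hN : ∀ w ∈ IsoV B, ∀ v ∈ IsoV B, B.f w v = 0 → ∀ 𝔅 : Subalgebra F (Mk k F),
      (∀ s ∈ Gam M, (s : Mk k F) *ᵥ w = w → (s : Mk k F) ∈ 𝔅) → rf B v v ∈ 𝔅)
    (hJ : ∀ x ∈ rg ν, ∀ y ∈ rg ν, B.f x y = 0) (sq : ν * ν = 0) (ne : ν ≠ 0)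
    (mem : In (Gam M) (1 + ν)) (mid : ∃ u u', B.f u u' = 1 ∧ ν *ᵥ u = 0 ∧ ν *ᵥ u' = 0)
    (lk : ∀ 𝔅 : Subalgebra F (Mk k F), (∀ s ∈ Gam M, (s : Mk k F) * ν = ν → (s : Mk k F) ∈ 𝔅) →
      ∃ w ∈ IsoV B, ∃ φ, φ ≠ 0 ∧ ro w φ ∈ 𝔅)
    (gen : ∀ X, (∀ s ∈ Gam M, X * cj s ν = cj s ν * X) → ∀ v ∈ IsoV B, ∃ c : F, X *ᵥ v = c • v) :
    Cx M (IsoV B) ν (pp B) where
  nz _ h := h.1
  tr w hw w' hw' := by
    obtain ⟨h, h1, h2⟩ := H.gf.tr w hw w' hw'
    exact ⟨h, h1, 1, by rw [h2, one_smul]⟩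
  cl g hg i j w hw w' h0 h := iso_of_le H.le hg (fun x hx y hy => by
    obtain ⟨a, rfl⟩ := Submodule.mem_span_singleton.1 hx
    obtain ⟨b, rfl⟩ := Submodule.mem_span_singleton.1 hy
    rw [B.smul_left, B.smul_right, hw.2, mul_zero, mul_zero]) h0 h
  cl' g hg i j w' h0 h := iso_of_le H.le hg hJ h0 h
  zs w hw 𝔅 h1 h2 X hX := sc_of_iso H fun v hv => by
    obtain ⟨z, hz, h3, h4⟩ := H.gf2.two w hw v hv
    have h5 := h2 z hz _ (ph_ne_zero hz.1) (hN w hw z hz (B.eq_zero_comm.1 h3) 𝔅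
      fun s hs e => h1 s hs ⟨1, by rw [e, one_smul]⟩)
    exact exists_eig (ph_ne_zero hv.1) (hX _ (hN z hz v hv h4 𝔅
      fun s hs e => h5 s hs ⟨1, by rw [e, one_smul]⟩))
  sq := sq
  ne := ne
  mem := mem
  mid := by
    obtain ⟨u, u', h1, h2, h3⟩ := mid
    exact ⟨u, ph B u', by rw [ph_dot, h1], h2, by
      rw [ph_vecMul, (mem.mono H.gf.iso).skew sq, neg_mulVec, h3, neg_zero, ph_zero]⟩
  lk := lk
  gen X hX := sc_of_iso H (gen X hX)
  w1 _ h := h.2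
  pa i w _ m hm h := sub_mem_LS_pp (H.le hm) h
  pb w hw ψ h := by
    obtain ⟨u, rfl⟩ := exists_ph B ψ
    rw [ph_dot] at h
    obtain ⟨c, s, hs, e⟩ := H.gf.eich w u hw.2 (B.eq_zero_comm.1 h)
    refine ⟨s, hs, fun v hv => ?_⟩
    simp [e, sub_mulVec, add_mulVec, smul_mulVec, rf_mulVec, mem_pp.1 hv, ph_dot]

theorem gd_sp (H : BC B M) (hL : ∀ i, ∀ w ∈ IsoV B, QL M i w (pp B w)) (halt : ∀ v, B.f v v = 0)
    (tv : ∀ x (c : F), In (Gam M) (1 + c • rf B x x)) (h4 : 4 ≤ k) : Gd M := by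
  obtain ⟨w, hw⟩ := H.gf.ex
  have nn : rf B w w * rf B w w = 0 := by rw [rf_mul_rf, halt, zero_smul]
  have hyp : ∀ w ∈ IsoV B, ∃ y b, B.f y b = 1 ∧ B.f y w = 0 ∧ B.f b w = 0 := fun w hw => by
    obtain ⟨y, h1, h2, h3⟩ := exists_line H hw
    obtain ⟨b, -, h4, h5⟩ := H.gf2.opp y h1 w hw h2 h3
    exact ⟨y, b, h4, h2, B.eq_zero_comm.1 h5⟩
  have sub : ∀ (𝔅 : Subalgebra F (Mk k F)) (X : Mk k F), 1 + (1 : F) • X ∈ 𝔅 → X ∈ 𝔅 :=
    fun 𝔅 X h => by simpa using sub_mem h (one_mem 𝔅)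
  refine ⟨IsoV B, rf B w w, pp B, cx_of H (fun w _ v _ h 𝔅 h1 => ?_) ?_ nn (rf_ne_zero hw.1 hw.1)
    (by simpa using tv w 1) ?_ (fun 𝔅 h => ⟨w, hw, ph B w, ph_ne_zero hw.1, ?_⟩) (fun X hX v hv => ?_),
    hL, fun h2 => hr_ro h2 (by rw [ph_dot, halt]), fun h2 =>
      ⟨⟨_, _, rfl⟩, fun i w φ h => ⟨h.1, halt w⟩, by omega, ?_⟩⟩
  · obtain ⟨s, hs, e⟩ := tv v 1
    exact sub _ _ (e ▸ h1 s hs (by simp [e, add_mulVec, rf_mulVec, h]))
  · rintro _ ⟨x, rfl⟩ _ ⟨y, rfl⟩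
    simp [rf_mulVec, B.smul_left, B.smul_right, halt]
  · obtain ⟨y, b, h1, h2, h3⟩ := hyp w hw
    exact ⟨y, b, h1, by simp [rf_mulVec, h2], by simp [rf_mulVec, h3]⟩
  · obtain ⟨s, hs, e⟩ := tv w 1
    exact sub _ _ (e ▸ h s hs (by simp [e, add_mul, nn]))
  · obtain ⟨s, hs, e⟩ := H.gf.tr w hw v hv
    have := hX s hs
    rw [cj_rf (H.gf.iso hs), e] at this
    exact exists_eig (ph_ne_zero hv.1) this
  by_cases hF : ∀ c : F, c = 0 ∨ c = 1
  · refine Or.inr (Or.inr ⟨B, H.le, h4, fun c _ => hF c, fun v _ _ => ⟨1, one_ne_zero, tv v 1⟩,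
      fun w h0 h1 => ?_⟩)
    obtain ⟨y, b, h1, h2, h3⟩ := hyp w ⟨h0, h1⟩
    have key : ∀ z, z ∈ F ∙ w → B.f z b = 0 ∧ B.f y z = 0 := fun z hz => by
      obtain ⟨r, rfl⟩ := Submodule.mem_span_singleton.1 hz
      simp [B.smul_left, B.smul_right, h2, B.eq_zero_comm.1 h3]
    refine ⟨y, b, ?_⟩
    rintro z (rfl | rfl | rfl)
    · exact ⟨halt _, h2, fun h => by simpa [h1] using (key _ h).1⟩
    · exact ⟨halt _, h3, fun h => by simpa [h1] using (key _ h).2⟩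
    · exact ⟨halt _, by simp [B.add_left, h2, h3], fun h => by
        simpa [B.add_left, h1, halt] using (key _ h).1⟩
  · push Not at hF
    obtain ⟨c, c0, c1⟩ := hF
    refine Or.inl ⟨c, c0, c1, fun i w φ h => ?_⟩
    obtain ⟨-, r, -, rfl⟩ := root_iso H.le h
    simpa [ro_smul_right, smul_smul] using tv w (c * r)

section orth
variable (H : BC B M) (hε : B.ε = 1) (h2 : (2 : F) ≠ 0) (h5 : 5 ≤ k)

include H hε in
theorem symm (u v : Fin k → F) : B.f u v = B.f v u := by rw [B.symm, H.sig, hε, one_mul]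

include H hε h2 h5 in
theorem exists_ns (a b : Fin k → F) : ∃ z, B.f z z ≠ 0 ∧ B.f z a = 0 ∧ B.f z b = 0 := by
  obtain ⟨x, -, h1, h3⟩ := H62.exists_mem_notMem_ker [B.left a, B.left b] (W := ⊤)
    (Z := Submodule.span F {x | x ∈ [a, b]}) (by
      have := H62.finrank_span_list_le (F := F) [a, b]
      simp only [List.length_cons, List.length_nil, finrank_top, finrank_fin_fun] at this ⊢
      omega)
  obtain ⟨u, h6, h7⟩ := exists_f_of_notMem (B := B) h1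
  have xa : B.f x a = 0 := h3 (B.left a) (by simp)
  have xb : B.f x b = 0 := h3 (B.left b) (by simp)
  have ua : B.f u a = 0 := B.eq_zero_comm.1 (h7 a (Submodule.subset_span (by simp)))
  have ub : B.f u b = 0 := B.eq_zero_comm.1 (h7 b (Submodule.subset_span (by simp)))
  by_contra! h
  have e1 : B.f x x = 0 := by_contra fun e => h x e xa xb
  have e2 : B.f u u = 0 := by_contra fun e => h u e ua ub
  refine h (x + u) ?_ (by simp [B.add_left, xa, ua]) (by simp [B.add_left, xb, ub])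
  rw [B.add_left, B.add_right, B.add_right, e1, e2, symm H hε u x, h6, zero_add, add_zero,
    one_add_one_eq_two]
  exact h2

include H hε h2 h5 in
theorem exists_root {v : Fin k → F} (hv : v ∈ IsoV B) {a : Fin k → F} (ha : B.f a v = 0) :
    ∃ s ∈ Gam M, (s : Mk k F) *ᵥ v = v ∧ (s : Mk k F) *ᵥ a = a ∧
      ∀ 𝔅 : Subalgebra F (Mk k F), (s : Mk k F) ∈ 𝔅 → rf B v v ∈ 𝔅 := by
  obtain ⟨z, z0, z1, z2⟩ := exists_ns H hε h2 h5 v a
  obtain ⟨c, s, hs, e⟩ := H.gf.eich v z hv.2 z1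
  have z3 := B.eq_zero_comm.1 z1
  refine ⟨s, hs, by simp [e, sub_mulVec, add_mulVec, smul_mulVec, rf_mulVec, hv.2, z3],
    by simp [e, sub_mulVec, add_mulVec, smul_mulVec, rf_mulVec, ha, B.eq_zero_comm.1 z2],
    fun 𝔅 h => ?_⟩
  have h1 := sub_mem h (one_mem 𝔅)
  have h3 := 𝔅.smul_mem (mul_mem h1 h1) (-(B.f z z)⁻¹)
  rw [e, hε, show 1 + rf B v z - (1 : F) • rf B z v - c • rf B v v - 1 =
    rf B v z - rf B z v - c • rf B v v by rw [one_smul]; abel] at h3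
  simpa [mul_sub, sub_mul, rf_mul_rf, hv.2, z1, z3, smul_smul, z0] using h3

include H hε h2 h5 in
theorem gd_o (hL : ∀ i, ∀ w ∈ IsoV B, QL M i w (pp B w)) : Gd M := by
  have sy := symm H hε
  obtain ⟨y, hy⟩ := H.gf.ex
  obtain ⟨x, hx, xy, hxy⟩ := exists_line H hy
  have yx : B.f y x = 0 := by rw [sy, xy]
  obtain ⟨q, -, xq, yq⟩ := H.gf2.opp x hx y hy xy hxy
  obtain ⟨p, -, yp, xp⟩ := H.gf2.opp y hy x hx yx (H62.notMem_span_symm hy.1 hxy)
  have act : ∀ x y z, (rf B x y - rf B y x) *ᵥ z = B.f z y • x - B.f z x • y := fun x y z => by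
    rw [sub_mulVec, rf_mulVec, rf_mulVec]
  have sq : (rf B x y - rf B y x) * (rf B x y - rf B y x) = 0 := by
    simp [mul_sub, sub_mul, rf_mul_rf, hx.2, hy.2, xy, yx]
  have e1 : (rf B x y - rf B y x) *ᵥ p = x := by simp [act, sy p, yp, xp]
  have e2 : (rf B x y - rf B y x) *ᵥ q = -y := by simp [act, sy q, yq, xq]
  refine ⟨IsoV B, rf B x y - rf B y x, pp B, cx_of H (fun w _ v hv h 𝔅 h1 => ?_) ?_ sq
    (fun h => hx.1 (by rw [← e1, h, zero_mulVec])) ?_ ?_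
    (fun 𝔅 h => ⟨x, hx, ph B x, ph_ne_zero hx.1, ?_⟩) (fun X hX v hv => ?_), hL, fun _ => ?_,
    fun h => absurd h h2⟩
  · obtain ⟨s, hs, -, h3, h4⟩ := exists_root H hε h2 h5 hv h
    exact h4 𝔅 (h1 s hs h3)
  · rintro _ ⟨a, rfl⟩ _ ⟨b, rfl⟩
    rw [toLin'_apply, toLin'_apply, act, act]
    simp [B.sub_left, B.sub_right, B.smul_left, B.smul_right, hx.2, hy.2, xy, yx]
  · obtain ⟨c, h⟩ := H.gf.eich x y hx.2 yx
    rw [hε, one_smul, add_sub_assoc, add_sub_assoc] at h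
    have h1 := (h.mono H.gf.iso).skew (by
      simp [mul_sub, sub_mul, rf_mul_rf, hx.2, hy.2, xy, yx])
    simp only [B.adj_sub, B.adj_smul, adj_rf, hε, one_smul, H.sig] at h1
    have h3 : (2 * c) • rf B x x = 0 := by linear_combination (norm := module) -h1
    rwa [(mul_eq_zero.1 ((smul_eq_zero.1 h3).resolve_right (rf_ne_zero hx.1 hx.1))).resolve_left h2,
      zero_smul, sub_zero] at h
  · obtain ⟨z, z0, z1, z2⟩ := exists_ns H hε h2 h5 x y
    exact ⟨(B.f z z)⁻¹ • z, z, by rw [B.smul_left, inv_mul_cancel₀ z0],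
      by simp [act, B.smul_left, z1, z2], by simp [act, z1, z2]⟩
  · obtain ⟨s, hs, h1, h3, h4⟩ := exists_root H hε h2 h5 hx yx
    exact h4 𝔅 (h s hs (by rw [mul_sub, mul_ro, mul_ro, h1, h3]))
  · obtain ⟨g, hg, rfl⟩ := H.gf.tr x hx v hv
    have gi := B.mem_Iso.1 (H.gf.iso hg)
    have hX' : ∀ s ∈ Gam M, ∀ z, X *ᵥ (B.f z ((s : Mk k F) *ᵥ (g : Mk k F) *ᵥ y) •
        (s : Mk k F) *ᵥ (g : Mk k F) *ᵥ x - B.f z ((s : Mk k F) *ᵥ (g : Mk k F) *ᵥ x) •
        (s : Mk k F) *ᵥ (g : Mk k F) *ᵥ y) = B.f (X *ᵥ z) ((s : Mk k F) *ᵥ (g : Mk k F) *ᵥ y) •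
        (s : Mk k F) *ᵥ (g : Mk k F) *ᵥ x - B.f (X *ᵥ z) ((s : Mk k F) *ᵥ (g : Mk k F) *ᵥ x) •
        (s : Mk k F) *ᵥ (g : Mk k F) *ᵥ y := fun s hs z => by
      have := congrArg (· *ᵥ z) (hX _ (mul_mem hs hg))
      simpa only [map_sub, cj_rf (H.gf.iso (mul_mem hs hg)), ← mulVec_mulVec, act, Units.val_mul]
        using this
    obtain ⟨u, hu, yu, xu⟩ := H.gf2.opp y hy x hx yx (H62.notMem_span_symm hy.1 hxy)
    have uu := hu.2
    have xx := hx.2
    rw [← gi] at yu xu uu xx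
    generalize (g : Mk k F) *ᵥ x = x' at *
    generalize (g : Mk k F) *ᵥ y = y' at *
    generalize (g : Mk k F) *ᵥ u = u' at *
    obtain ⟨z, z0, z1, z2⟩ := exists_ns H hε h2 h5 x' u'
    obtain ⟨c, s, hs, e⟩ := H.gf.eich u' z uu z2
    have s1 : (s : Mk k F) *ᵥ x' = x' := by
      simp [e, sub_mulVec, add_mulVec, smul_mulVec, rf_mulVec, xu, sy x' z, z1]
    have s2 : (s : Mk k F) *ᵥ y' = y' + (B.f y' z - c) • u' - z := by
      simp only [e, sub_mulVec, add_mulVec, smul_mulVec, rf_mulVec, yu, hε, one_mulVec]; module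
    have h6 := hX' 1 (one_mem _) u'
    have h7 := hX' s hs u'
    simp only [s1, s2, Units.val_one, one_mulVec, B.sub_right, B.add_right, B.smul_right, sy u', yu,
      xu, uu, z2, mul_zero, add_zero, sub_zero, zero_smul, one_smul] at h6 h7
    generalize B.f (X *ᵥ u') x' = b at h6 h7
    obtain ⟨α, β, h8⟩ : ∃ α β : F, b • z = α • x' + β • u' := by
      generalize B.f y' z - c = r at h7
      generalize B.f (X *ᵥ u') y' + _ - _ = A at h7
      exact ⟨B.f (X *ᵥ u') y' - A, b * r, by linear_combination (norm := module) h6 - h7⟩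
    have h9 := congrArg (B.f z) h8
    rw [B.smul_right, B.add_right, B.smul_right, B.smul_right, z1, z2, H.sig, mul_zero, mul_zero,
      add_zero, mul_eq_zero, or_iff_left z0] at h9
    exact ⟨_, by rw [h6, h9, zero_smul, sub_zero]⟩
  · rintro i b ⟨m, hm, e⟩ hb hc h1 hk
    have ad : B.adj b = b := by
      have h3 := (B.pow t).mem_Iso_iff_adj.1 (H.le hm)
      rw [e, adj_em, Units.inv_eq_of_mul_eq_one_right (u := m) (a := em i b)
        (by rw [e, ← map_mul, hb, map_one]), em_inj] at h3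
      exact h3
    have ad' : ∀ u v, B.f (b *ᵥ u) v = B.f u (b *ᵥ v) := fun u v => by rw [B.adj_left, ad]
    have bx : b *ᵥ x = B.f (b *ᵥ p) y • x - B.f (b *ᵥ p) x • y := by
      rw [← act, mulVec_mulVec, ← hc, ← mulVec_mulVec, e1]
    have by' : -(b *ᵥ y) = B.f (b *ᵥ q) y • x - B.f (b *ᵥ q) x • y := by
      rw [← act, mulVec_mulVec, ← hc, ← mulVec_mulVec, e2, mulVec_neg]
    have k1 := congrArg (B.f p) bx
    have k2 := congrArg (B.f q) by'
    have k3 := congrArg (B.f p) by'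
    simp only [B.neg_right, ← ad', B.sub_right, B.smul_right, H.sig, sy p, sy q, yp, xp, xq, yq]
      at k1 k2 k3
    have k4 : B.f (b *ᵥ p) x = 0 := mul_left_cancel₀ h2 (by linear_combination k1)
    have k5 : B.f (b *ᵥ q) y = 0 := mul_left_cancel₀ h2 (by linear_combination -k2)
    have k6 : B.f (b *ᵥ q) x = B.f (b *ᵥ p) y := by linear_combination k3
    rw [k4, zero_smul, sub_zero] at bx
    rw [k5, zero_smul, zero_sub, neg_inj, k6] at by'
    generalize B.f (b *ᵥ p) y = l at bx by'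
    have l2 : l * l = 1 := by
      have := congrArg (b *ᵥ ·) bx
      simp only [mulVec_mulVec, hb, one_mulVec, mulVec_smul] at this
      rw [bx, smul_smul] at this
      exact (smul_left_injective F hx.1 (by simpa using this : (1 : F) • x = (l * l) • x)).symm
    rcases mul_self_eq_one_iff.1 l2 with rfl | rfl
    · refine absurd (ext_mulVec fun v => ?_) h1
      rw [one_smul] at bx by'
      obtain ⟨r, hr⟩ := mem_rg.1 (hk (b *ᵥ v - v) (by
        simp [act, B.sub_left, ad', bx, by']))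
      have h3 := congrArg (b *ᵥ ·) hr
      simp only [act, mulVec_sub, mulVec_smul, bx, by', mulVec_mulVec, hb, one_mulVec] at h3 hr
      rw [one_mulVec]
      exact smul_right_injective _ (mul_ne_zero h2 h2) (by
        change (2 * 2 : F) • _ = (2 * 2 : F) • _
        linear_combination (norm := module) hr - h3)
    · rw [mul_sub, mul_ro, mul_ro, bx, by', ro_smul_left, ro_smul_left]; simp; abel

end orth

theorem jobBG : JobBG.{u} := by
  intro F _ _ k t B M H hL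
  rcases H.kind with ⟨h1, -, h2, h3, -⟩ | ⟨h1, h2, h3⟩
  · exact gd_sp H hL h1 h2 h3
  · exact gd_o H h1 h2 h3 hL

end H59.WrBG
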