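/- Tensor-induced subgroups with orthogonal factors of dimension three: a small tool kit. -/
import Cfsg.Agent.H60.WrO3Spec
import Cfsg.Agent.H59.WrBG

set_option autoImplicit false

namespace H59.O3
open Cfsg Cfsg.Geo Matrix H19 Module H60.Wr
open scoped MatrixGroups commutatorElement

universe u

variable {F : Type u} [Field F] {t : ℕ} {B : Frm (Fin 3) F} {w w' v v' x y : Fin 3 → F}

theorem sy (H : O3 B) (x y : Fin 3 → F) : B.f x y = B.f y x := by
  rw [B.symm, H.sig, H.eps, one_mul]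

theorem smr (H : O3 B) (c : F) (x y : Fin 3 → F) : B.f x (c • y) = c * B.f x y := by
  rw [B.smul_right, H.sig]

theorem rf_smr (H : O3 B) (c : F) (x y : Fin 3 → F) : rf B x (c • y) = c • rf B x y := by
  rw [rf_smul_right, H.sig]

theorem adj_rf' (H : O3 B) (x y : Fin 3 → F) : B.adj (rf B x y) = rf B y x := by
  rw [adj_rf, H.eps, one_smul]

theorem eu_zero (B : Frm (Fin 3) F) (w : Fin 3 → F) : eu B w 0 = 1 := by simp [eu]

theorem eu_add (H : O3 B) (hw : B.f w w = 0) (hv : B.f v w = 0) (hv' : B.f v' w = 0) :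
    eu B w (v + v') = eu B w v * eu B w v' := by
  have h1 : B.f w v = 0 := by rw [sy H, hv]
  have h2 := H.two
  simp only [eu, rf_add_right, ro_add_left, B.add_left, B.add_right, mul_add, add_mul, mul_sub,
    sub_mul, one_mul, mul_one, smul_mul_assoc, mul_smul_comm, rf_mul_rf, hw, hv, hv', h1,
    zero_smul, smul_zero, sy H v v']
  match_scalars <;> field_simp <;> ring

theorem eu_sq (H : O3 B) (hw : B.f w w = 0) (hv : B.f v w = 0) :
    (eu B w v - 1) ^ 2 = (-B.f v v) • rf B w w := by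
  have h1 : B.f w v = 0 := by rw [sy H, hv]
  simp only [eu, sq, mul_add, add_mul, mul_sub,
    sub_mul, one_mul, mul_one, smul_mul_assoc, mul_smul_comm, rf_mul_rf, hw, hv, h1,
    zero_smul, smul_zero]
  module

theorem eu_cube (H : O3 B) (hw : B.f w w = 0) (hv : B.f v w = 0) : (eu B w v - 1) ^ 3 = 0 := by
  have h1 : B.f w v = 0 := by rw [sy H, hv]
  rw [pow_succ, eu_sq H hw hv]
  simp only [eu, mul_add, mul_sub, mul_one, smul_mul_assoc, mul_smul_comm, rf_mul_rf, hw, hv,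
    zero_smul, smul_zero]
  module

theorem eu_w (H : O3 B) (hw : B.f w w = 0) (hv : B.f v w = 0) : eu B w v *ᵥ w = w := by
  have h1 : B.f w v = 0 := by rw [sy H, hv]
  simp [eu, add_mulVec, sub_mulVec, smul_mulVec, rf_mulVec, hw, h1]

theorem em_eu_sq (H : O3 B) (hw : B.f w w = 0) (hv : B.f v w = 0) (i : Fin t) :
    ((em i (eu B w v) : EE 3 t F) - 1) ^ 2 = (-B.f v v) • em i (rf B w w) := by
  rw [← map_smul, ← eu_sq H hw hv, map_pow, map_sub, map_one]

theorem em_eu_cube (H : O3 B) (hw : B.f w w = 0) (hv : B.f v w = 0) (i : Fin t) :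
    ((em i (eu B w v) : EE 3 t F) - 1) ^ 3 = 0 := by
  rw [← map_zero (em i), ← eu_cube H hw hv, map_pow, map_sub, map_one]

theorem G0_le (B : Frm (Fin 3) F) : G0 B ≤ B.Iso := comm_le _

theorem conj_mem_G0 {b s : GL (Fin 3) F} (hb : b ∈ B.Iso) (hs : s ∈ G0 B) : b * s * b⁻¹ ∈ G0 B := by
  have := mul_mem (Subgroup.commutator_mem_commutator hb (G0_le B hs)) hs
  rwa [commutatorElement_def, inv_mul_cancel_right] at this

theorem not_sc_N (H : O3L B) {e : Fin 3 → F} (he : B.f e e ≠ 0) : ¬ Sc (rf B e e) := by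
  rintro ⟨c, hc⟩
  obtain ⟨w, w0, hw⟩ := H.ex
  have e0 : e ≠ 0 := by rintro rfl; simp at he
  have h1 := congrArg (· *ᵥ e) hc
  have h2 := congrArg (· *ᵥ w) hc
  simp only [rf_mulVec, smul_mulVec, one_mulVec] at h1 h2
  have h3 : B.f e e = c := smul_left_injective F e0 h1
  have h4 := congrArg₂ B.f h2 h2
  rw [B.smul_left, B.smul_left, smr H.toO3, smr H.toO3, hw, mul_zero, mul_zero, ← mul_assoc] at h4
  have h5 : B.f w e = 0 := mul_self_eq_zero.1 ((mul_eq_zero.1 h4).resolve_right he)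
  rw [h5, zero_smul] at h2
  exact w0 ((smul_eq_zero.1 h2.symm).resolve_left (h3 ▸ he))

theorem ct_inC_of {k : ℕ} {i j : Fin t} {Z : EE k t F} (hj : j ≠ i) (h : InC j Z)
    (φ x : Fin k → F) : InC j (ct i φ x Z) :=
  InC.sum fun _ _ => ((InC.em hj _).mul h).mul (InC.em hj _)

theorem tr_gam {M : Subgroup (GG 3 t F)} (H : O3M B M) : ∀ w ∈ IsoV B, ∀ w' ∈ IsoV B,
    ∃ h ∈ Gam M, ∃ c : F, (h : Mk 3 F) *ᵥ w = c • w' := fun w hw w' hw' => by
  obtain ⟨h, hh, e⟩ := H.f.tr w hw w' hw'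
  exact ⟨h, H.gam hh, e⟩

theorem emG_mem_MI {M : Subgroup (GG 3 t F)} (H : O3M B M) {I : Finset (Fin t)} {m : Fin t}
    (hm : m ∈ I) {s : GL (Fin 3) F} (hs : s ∈ G0 B) : emG m s ∈ MI M I :=
  ⟨mem_Gam.1 (H.gam hs) m, fun j hj => InC.emG (by rintro rfl; exact hj hm) s⟩

theorem mem_erase {k : ℕ} {M : Subgroup (GG k t F)} {I : Finset (Fin t)} {m : Fin t} {g : GG k t F}
    (hg : g ∈ MI M I) (h : InC m (g : EE k t F)) : g ∈ MI M (I.erase m) :=
  ⟨hg.1, fun j hj => by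
    by_cases e : j = m
    · rwa [e]
    · exact hg.2 j fun h' => hj (Finset.mem_erase.2 ⟨e, h'⟩)⟩

end H59.O3
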