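/- Tensor-induced subgroups with orthogonal factors of dimension three: the job KL. -/
import Cfsg.Agent.H59.O3K

set_option autoImplicit false

namespace H59.O3
open Cfsg Cfsg.Geo Matrix H19 Module H60.Wr
open scoped MatrixGroups commutatorElement

universe u

variable {F : Type u} [Field F] {k t : ℕ}

/-- The product of rank one idempotents over a set of factors. -/
def piS (q : Fin t → Mk k F) (S : Finset (Fin t)) : EE k t F := pure fun l => if l ∈ S then q l else 1

theorem piS_empty (q : Fin t → Mk k F) : piS q ∅ = 1 := by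
  rw [piS, ← pure_one]; congr 1

theorem piS_inC (q : Fin t → Mk k F) {S : Finset (Fin t)} {l : Fin t} (h : l ∉ S) :
    InC l (piS q S) := InC.pure (by simp [h])

theorem piS_insert (q : Fin t → Mk k F) {S : Finset (Fin t)} {l : Fin t} (h : l ∉ S) :
    piS q (insert l S) = em l (q l) * piS q S := by
  rw [piS, piS, em_mul_pure]; congr 1; funext j
  by_cases e : j = l
  · subst e; simp [h]
  · simp [e]

theorem piS_comm (q : Fin t → Mk k F) (S : Finset (Fin t)) {X : EE k t F}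
    (h : ∀ l ∈ S, em l (q l) * X = X * em l (q l)) : piS q S * X = X * piS q S := by
  induction S using Finset.induction_on with
  | empty => simp [piS_empty]
  | insert l S hl ih =>
    rw [piS_insert q hl, mul_assoc, ih fun j hj => h j (by simp [hj]), ← mul_assoc,
      h l (by simp), mul_assoc]

theorem piS_mul (x φ : Fin t → Fin k → F) (S : Finset (Fin t)) (X : EE k t F) :
    ∃ Y, (∀ l ∈ S, InC l Y) ∧ piS (fun l => ro (x l) (φ l)) S * X * piS (fun l => ro (x l) (φ l)) S
      = Y * piS (fun l => ro (x l) (φ l)) S := by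
  induction S using Finset.induction_on with
  | empty => exact ⟨X, by simp, by simp [piS_empty]⟩
  | insert l S hl ih =>
    obtain ⟨Y, h1, h2⟩ := ih
    refine ⟨ct l (φ l) (x l) Y, fun j hj => ?_, ?_⟩
    · by_cases e : j = l
      · subst e; exact ct_inC _ _ _ _
      · exact ct_inC_of e (h1 j (by simpa [e] using hj)) _ _
    have h3 := piS_inC (fun l => ro (x l) (φ l)) hl (ro (x l) (φ l))
    rw [piS_insert _ hl, ← mul_assoc (ct _ _ _ _), ← ct_spec', mul_assoc _ _ (piS _ S), h3,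
      ← mul_assoc, ← mul_assoc, mul_assoc (em l _) Y, ← h2, ← h3]
    simp only [mul_assoc]

/-- The projection `π` of the blueprint. -/
structure Pi' (B : Frm (Fin k) F) (m : Fin t) (π : EE k t F) : Prop where
  sq : π * π = π
  ne : π ≠ 0
  inC : InC m π
  adj : (B.pow t).adj π = π
  mul : ∀ X, ∃ β, π * X * π = em m β * π

theorem exists_pi {B : Frm (Fin 3) F} (H : O3 B) (m : Fin t) {e : Fin t → Fin 3 → F}
    (he : ∀ l, B.f (e l) (e l) ≠ 0) : ∃ π, Pi' B m π ∧ ∀ g : GG 3 t F,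
      (∀ l, l ≠ m → Ce B l (e l) g) → π * g = g * π := by
  have e0 : ∀ l, e l ≠ 0 := fun l h => he l (by simp [h])
  refine ⟨piS (fun l => ro ((B.f (e l) (e l))⁻¹ • e l) (ph B (e l))) (Finset.univ.erase m),
    ⟨?_, pure_ne_zero fun j => ?_, piS_inC _ (by simp), ?_, fun X => ?_⟩, fun g hg => ?_⟩
  · rw [piS, ← pure_mul]; congr 1; funext j
    simp only [Pi.mul_apply]
    split_ifs
    · rw [ro_mul_ro, ph_dot, B.smul_left, inv_mul_cancel₀ (he j), one_smul]
    · rw [one_mul]
  · split_ifs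
    · exact ro_ne_zero (smul_ne_zero (inv_ne_zero (he j)) (e0 j)) (ph_ne_zero (e0 j))
    · exact one_ne_zero
  · rw [piS, B.adj_pow_pure]; congr 1; funext j
    split_ifs
    · rw [ro_smul_left, B.adj_smul, H.sig, adj_rf' H]
    · exact B.adj_one
  · obtain ⟨Y, h1, h2⟩ := piS_mul (fun l => (B.f (e l) (e l))⁻¹ • e l) (fun l => ph B (e l))
      (Finset.univ.erase m) X
    obtain ⟨β, rfl⟩ := T4 (i := m) fun j hj => h1 j (by simp [hj])
    exact ⟨β, h2⟩
  · refine piS_comm _ _ fun l hl => ?_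
    rw [ro_smul_left, map_smul, smul_mul_assoc, mul_smul_comm, hg l (by simpa using hl)]

variable {B : Frm (Fin k) F} {m : Fin t} {π : EE k t F} {g h : GG k t F} {r s : GL (Fin k) F}

/-- `g` acts on the image of `π` like `s`. -/
def RR (m : Fin t) (π : EE k t F) (g : GG k t F) (s : GL (Fin k) F) : Prop :=
  (g : EE k t F) * π = em m (s : Mk k F) * π

theorem Pi'.cancel (P : Pi' B m π) {a b : Mk k F} (h : em m a * π = em m b * π) : a = b :=
  sub_eq_zero.1 ((T2 P.inC (by rw [map_sub, sub_mul, h, sub_self])).resolve_right P.ne)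

theorem RR.em (m : Fin t) (π : EE k t F) (s : GL (Fin k) F) : RR m π (emG m s) s := rfl

theorem RR.mul (P : Pi' B m π) (hg : RR m π g s) (hh : RR m π h r) : RR m π (g * h) (s * r) := by
  rw [RR, Units.val_mul, Units.val_mul, map_mul, mul_assoc, hh, P.inC, ← mul_assoc, hg, mul_assoc,
    mul_assoc, P.inC]

theorem RR.inv (P : Pi' B m π) (hg : RR m π g s) : RR m π g⁻¹ s⁻¹ := by
  have : ((g⁻¹ : GG k t F) : EE k t F) * (g * π) * H60.Wr.em m ((s⁻¹ : GL (Fin k) F) : Mk k F) =
      ((g⁻¹ : GG k t F) : EE k t F) * π := by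
    rw [hg, P.inC, mul_assoc, mul_assoc, ← map_mul, Units.mul_inv, map_one, mul_one]
  rw [RR, ← this, Units.inv_mul_cancel_left, P.inC]

theorem RR.one_iff : RR m π g 1 ↔ (g : EE k t F) * π = π := by simp [RR]

theorem Pi'.exists_RR (P : Pi' B m π) (hg : g ∈ (B.pow t).Iso) (hc : π * g = g * π) :
    ∃ s ∈ B.Iso, RR m π g s := by
  have hc' : π * ((g⁻¹ : GG k t F) : EE k t F) = ((g⁻¹ : GG k t F) : EE k t F) * π :=
    Commute.units_inv_right hc
  obtain ⟨β, h1⟩ := P.mul g
  obtain ⟨γ, h2⟩ := P.mul ((g⁻¹ : GG k t F) : EE k t F)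
  rw [hc, mul_assoc, P.sq] at h1
  rw [hc', mul_assoc, P.sq] at h2
  have h3 : β * γ = 1 := P.cancel (by
    rw [map_mul, mul_assoc, P.inC, ← mul_assoc, ← h1, mul_assoc, ← P.inC, ← h2,
      Units.mul_inv_cancel_left, map_one, one_mul])
  refine ⟨⟨β, γ, h3, mul_eq_one_comm.1 h3⟩, B.mem_Iso_iff_adj.2 (P.cancel ?_), h1⟩
  have h4 := congrArg (B.pow t).adj h1
  rw [Frm.adj_mul, Frm.adj_mul, P.adj, adj_em, (B.pow t).mem_Iso_iff_adj.1 hg, hc', h2,
    ← P.inC] at h4
  exact h4.symm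

/-- The centraliser of `A_m` in the general linear group. -/
def CG (k : ℕ) (F : Type u) [Field F] (m : Fin t) : Subgroup (GG k t F) where
  carrier := {x | InC m (x : EE k t F)}
  one_mem' := InC.one
  mul_mem' ha hb := ha.mul hb
  inv_mem' ha := ha.inv

/-- The subgroup `C₀` of the blueprint. -/
def C0 (B : Frm (Fin k) F) (M : Subgroup (GG k t F)) (I : Finset (Fin t)) (m : Fin t)
    (e : Fin t → Fin k → F) : Subgroup (GG k t F) where
  carrier := {g | g ∈ MI M I ∧ ∀ l, l ≠ m → Ce B l (e l) g}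
  one_mem' := ⟨one_mem _, fun _ _ => by simp [Ce]⟩
  mul_mem' ha hb := ⟨mul_mem ha.1 hb.1, fun l hl => Commute.mul_right (ha.2 l hl) (hb.2 l hl)⟩
  inv_mem' ha := ⟨inv_mem ha.1, fun l hl => Commute.units_inv_right (ha.2 l hl)⟩

/-- The kernel `K` of the blueprint. -/
def KK (P : Pi' B m π) (C : Subgroup (GG k t F)) : Subgroup (GG k t F) where
  carrier := {g | g ∈ C ∧ RR m π g 1}
  one_mem' := ⟨one_mem _, by simp [RR]⟩
  mul_mem' ha hb := ⟨mul_mem ha.1 hb.1, by simpa using ha.2.mul P hb.2⟩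
  inv_mem' ha := ⟨inv_mem ha.1, by simpa using ha.2.inv P⟩

theorem jobO3KL : JobO3KL.{u} := by
  intro hKG hPE F _ _ t B M I m e g H pw hm hT cb he hg hgc
  have L := H.f.toO3L
  have O := L.toO3
  obtain ⟨π, P, hπ⟩ := exists_pi O m he
  have hem : ∀ s ∈ G0 B, emG m s ∈ C0 B M I m e := fun s hs =>
    ⟨emG_mem_MI H hm hs, fun l hl => em_comm hl _ _⟩
  have h2 : ∀ x ∈ KK P (C0 B M I m e), x ∈ CG 3 F m → IsNilpotent ((x : EE 3 t F) - 1) →
      x = 1 := fun x hx hc hn => by
    have hxT := hT (mem_erase hx.1.1 hc)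
    obtain ⟨c, hc⟩ : Sc (x : EE 3 t F) := sc_of_inC fun l => by
      by_cases hl : l = m
      · rw [hl]; exact hc
      exact hPE F t B x l (e l) L (H.le hx.1.1.1) hn (nm_of_cj hxT (not_sc_N L (he l))
        ⟨_, (cj_eq_iff _ _ _).2 (hx.1.2 l hl).symm⟩) (he l) (hx.1.2 l hl)
    have h1 := RR.one_iff.1 hx.2
    rw [hc, smul_mul_assoc, one_mul] at h1
    have h3 : c = 1 := smul_left_injective F P.ne (h1.trans (one_smul _ _).symm)
    exact Units.ext (by rw [hc, h3, one_smul, Units.val_one])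
  obtain ⟨w, hw⟩ := L.ex
  obtain ⟨w', hw', ww⟩ := L.hyp w hw
  obtain ⟨v, vw, -, vv, -⟩ := L.frame w hw w' hw' ww
  have vs : ∀ s : F, B.f (s • v) w = 0 := fun s => by rw [B.smul_left, vw, mul_zero]
  choose u hu eu' using fun s : F => H.f.eich w hw (s • v) (vs s)
  have N0 : (em m (rf B w w) : EE 3 t F) ≠ 0 := fun h => rf_ne_zero hw.1 hw.1 (em_eq_zero.1 h)
  have sq : ∀ s : F, ((emG m (u s) : EE 3 t F) - 1) ^ 2 = (-(s * s * B.f v v)) • em m (rf B w w) :=
    fun s => by rw [coe_emG, eu', em_eu_sq O hw.2 (vs s), B.smul_left, smr O, mul_assoc]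
  have hK : KK P (C0 B M I m e) ≤ CG 3 F m := by
    refine hKG F _ _ _ (fun s => emG m (u s)) O.two O.big (fun r s => ?_) (fun s hs => ?_)
      (fun s => ?_) (fun s x hx => ?_) (fun s hs x hx hc => ?_) h2
    · rw [← map_mul]; congr 1
      exact Units.ext (by rw [Units.val_mul, eu', eu', eu', add_smul, eu_add O hw.2 (vs r) (vs s)])
    · have := sq s
      rw [hs, Units.val_one, sub_self, zero_pow two_ne_zero] at this
      simpa [vv, N0] using this.symm
    · rw [coe_emG, eu', em_eu_cube O hw.2 (vs s)]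
    · exact ⟨mul_mem (mul_mem (hem _ (hu s)) hx.1) (inv_mem (hem _ (hu s))), by
        simpa using ((RR.em m π (u s)).mul P hx.2).mul P ((RR.em m π (u s)).inv P)⟩
    have h3 : Commute (emG m (u s) : EE 3 t F) x := congrArg Units.val hc
    have h4 := (h3.sub_left (Commute.one_left _)).pow_left 2
    rw [sq, Commute.smul_left_iff₀ (by simp [hs, vv])] at h4
    have h5 : Maps x m w m w := by
      rw [Maps, ← rg_em_ro m (ph_ne_zero (B := B) hw.1), ← rg_cj, (cj_eq_iff _ _ _).2 h4.eq.symm]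
    refine cb w hw x hx.1.1 fun a ha hst => ?_
    obtain ⟨b, hb⟩ := h5.stIn pw (tr_gam H) hx.1.1.1 hw hw hw.1 a (H.gam ha) hst
    have h6 := (hx.2.mul P (RR.em m π a)).mul P (hx.2.inv P)
    rw [RR, ← cj_coe, coe_emG, hb] at h6
    rw [P.cancel h6] at hb
    simp only [inv_one, mul_one, one_mul] at hb
    exact Units.ext ((cj_eq_iff _ _ _).1 hb).symm
  have hg0 : g ∈ C0 B M I m e := ⟨hg, hgc⟩
  obtain ⟨b, hb, R⟩ := P.exists_RR (H.le hg.1) (hπ g hgc)
  refine nm_of_BB fun X hX => L.cent X fun x hx y yx => hX _ ?_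
  obtain ⟨s, hs, es⟩ := H.f.eich x hx y yx
  have hs' := conj_mem_G0 hb hs
  have k1 : g * emG m s * g⁻¹ * (emG m (b * s * b⁻¹))⁻¹ ∈ KK P (C0 B M I m e) :=
    ⟨mul_mem (mul_mem (mul_mem hg0 (hem s hs)) (inv_mem hg0)) (inv_mem (hem _ hs')), by
      simpa using ((R.mul P (RR.em m π s)).mul P (R.inv P)).mul P ((RR.em m π (b * s * b⁻¹)).inv P)⟩
  have k2 := hK k1
  have n1 : IsNilpotent ((s : Mk 3 F) - 1) := ⟨3, by rw [es, eu_cube O hx.2 yx]⟩
  have n2 : IsNilpotent (((g * emG m s * g⁻¹ : GG 3 t F) : EE 3 t F) - 1) := by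
    have := (n1.map (em (t := t) m)).map (cj g)
    rwa [map_sub, map_sub, map_one, map_one, ← coe_emG, cj_coe] at this
  have n3 : IsNilpotent ((emG m (b * s * b⁻¹) : EE 3 t F) - 1) := by
    have := (n1.map (cj b)).map (em (t := t) m)
    rwa [map_sub, map_sub, map_one, map_one, cj_coe, ← coe_emG] at this
  have k3 : g * emG m s * g⁻¹ = emG m (b * s * b⁻¹) := by
    generalize g * emG m s * g⁻¹ = A at k1 k2 n2
    have c1 : Commute (emG m (b * s * b⁻¹)) (A * (emG m (b * s * b⁻¹))⁻¹) :=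
      Units.ext (k2 _)
    generalize emG m (b * s * b⁻¹) = D at k1 k2 n3 c1
    have c2 : Commute D A := by simpa using c1.mul_right (Commute.refl D)
    have c3 : Commute (D : EE 3 t F) (A : EE 3 t F) := congrArg Units.val c2
    refine mul_inv_eq_one.1 (h2 _ k1 k2 ?_)
    have c4 : Commute ((A : EE 3 t F) - 1) ((D : EE 3 t F) - 1) :=
      (c3.symm.sub_left (Commute.one_left _)).sub_right (Commute.one_right _)
    have n4 := c4.isNilpotent_sub n2 n3
    rw [sub_sub_sub_cancel_right] at n4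
    have := Commute.isNilpotent_mul_right
      (Commute.units_inv_right (c3.symm.sub_left (Commute.refl _))) n4
    rwa [sub_mul, Units.mul_inv, ← Units.val_mul] at this
  rw [mem_BB, ← es, ← coe_emG, cj_coe, k3]
  exact InA.em _ _

end H59.O3
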