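/- Tensor-induced subgroups with orthogonal factors of dimension three: lemmas for the job CB. -/
import Cfsg.Agent.H59.O3KL

set_option autoImplicit false

namespace H59.O3
open Cfsg Cfsg.Geo Matrix H19 Module H60.Wr
open scoped MatrixGroups commutatorElement

universe u

section grp
variable {G : Type*} [Group G] [Finite G]

theorem not_dvd_index_of {p : ℕ} [Fact p.Prime] (H : Subgroup G) (S : Set G) (hS : ∀ x ∈ S, x ∈ H)
    (hc : ∀ x ∈ S, ∀ y ∈ S, x * y = y * x) (hp : ∀ x ∈ S, x ^ p = 1)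
    (h : ∀ g, (∀ x ∈ S, g⁻¹ * x * g ∈ H) → g ∈ H) : ¬ p ∣ H.index := by
  have h1 : S ⊆ Subgroup.centralizer S := fun x hx y hy => hc y hy x hx
  let Q : Subgroup G :=
    { carrier := {x | x ∈ Subgroup.centralizer (Subgroup.centralizer S : Set G) ∧ x ^ p = 1}
      one_mem' := ⟨one_mem _, one_pow _⟩
      mul_mem' := fun {a b} ha hb => ⟨mul_mem ha.1 hb.1, by
        have : Commute a b := (ha.1 b (Subgroup.centralizer_le h1 hb.1)).symm
        rw [this.mul_pow, ha.2, hb.2, one_mul]⟩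
      inv_mem' := fun ha => ⟨inv_mem ha.1, by rw [inv_pow, ha.2, inv_one]⟩ }
  have hQ : IsPGroup p Q := fun x => ⟨1, Subtype.ext (by simpa using x.2.2)⟩
  obtain ⟨P, hP⟩ := hQ.exists_le_sylow
  have hSP : ∀ x ∈ S, x ∈ P := fun x hx => hP ⟨fun y hy => (hy x hx).symm, hp x hx⟩
  have h2 : (P : Subgroup G) ≤ H := by
    by_contra hn
    haveI := P.isPGroup'.isNilpotent
    have h3 : H.subgroupOf P < ⊤ := by rwa [lt_top_iff_ne_top, Ne, Subgroup.subgroupOf_eq_top]
    obtain ⟨g, hg, hg'⟩ := SetLike.exists_of_lt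
      (Group.normalizerCondition_of_isNilpotent (G := P) _ h3)
    exact hg' (h g fun x hx =>
      (Subgroup.mem_normalizer_iff''.1 hg ⟨x, hSP x hx⟩).1 (hS x hx))
  exact fun hd => P.not_dvd_index (hd.trans (Subgroup.index_dvd_of_le h2))

theorem exists_avg {V : Type*} [AddCommGroup V] (ρ : G → V →+ V)
    (mul : ∀ g h x, ρ (g * h) x = ρ g (ρ h x)) (H : Subgroup G) (ε : V) (hH : ∀ h ∈ H, ρ h ε = ε)
    (W : AddSubgroup V) (hW : ∀ g, ρ g ε - ε ∈ W) :
    ∃ z ∈ W, ∀ g, ρ g (H.index • ε + z) = H.index • ε + z := by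
  haveI := Fintype.ofFinite (G ⧸ H)
  have h1 : ∀ x : G, ρ (QuotientGroup.mk x : G ⧸ H).out ε = ρ x ε := fun x => by
    obtain ⟨h, e⟩ := QuotientGroup.mk_out_eq_mul H x
    rw [e, mul, hH h h.2]
  have h2 : H.index • ε + ∑ q : G ⧸ H, (ρ q.out ε - ε) = ∑ q : G ⧸ H, ρ q.out ε := by
    rw [Finset.sum_sub_distrib, Finset.sum_const, Finset.card_univ, Subgroup.index,
      Nat.card_eq_fintype_card, add_sub_cancel]
  refine ⟨∑ q : G ⧸ H, (ρ q.out ε - ε), sum_mem fun q _ => hW _, fun g => ?_⟩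
  rw [h2, map_sum, ← Equiv.sum_comp (MulAction.toPerm g) fun q : G ⧸ H => ρ q.out ε]
  refine Finset.sum_congr rfl fun q _ => ?_
  rw [← mul, ← h1, MulAction.toPerm_apply, ← smul_eq_mul, MulAction.Quotient.mk_smul_out]

end grp

variable {F : Type u} [Field F] {t : ℕ} {B : Frm (Fin 3) F} {w w' v : Fin 3 → F}

/-- A frame of the factor. -/
structure Fr (B : Frm (Fin 3) F) (w w' v : Fin 3 → F) : Prop where
  o : O3 B
  hw : w ∈ IsoV B
  hw' : w' ∈ IsoV B
  ww : B.f w w' = 1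
  vw : B.f v w = 0
  vw' : B.f v w' = 0
  vv : B.f v v ≠ 0
  one : rf B w w' + rf B w' w + (B.f v v)⁻¹ • rf B v v = 1

theorem exists_fr (L : O3L B) (hw : w ∈ IsoV B) : ∃ w' v, Fr B w w' v := by
  obtain ⟨w', hw', ww⟩ := L.hyp w hw
  obtain ⟨v, h1, h2, h3, h4⟩ := L.frame w hw w' hw' ww
  exact ⟨w', v, L.toO3, hw, hw', ww, h1, h2, h3, h4⟩

namespace Fr
variable (R : Fr B w w' v)
include R

theorem ww' : B.f w' w = 1 := by rw [sy R.o, R.ww]
theorem wv : B.f w v = 0 := by rw [sy R.o, R.vw]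
theorem wv' : B.f w' v = 0 := by rw [sy R.o, R.vw']

theorem vec (z : Fin 3 → F) :
    z = B.f z w' • w + B.f z w • w' + ((B.f v v)⁻¹ * B.f z v) • v := by
  have := congrArg (· *ᵥ z) R.one
  simpa only [add_mulVec, smul_mulVec, rf_mulVec, one_mulVec, smul_smul] using this.symm

theorem mat {X Y : Mk 3 F} (h1 : X *ᵥ w = Y *ᵥ w) (h2 : X *ᵥ v = Y *ᵥ v) (h3 : X *ᵥ w' = Y *ᵥ w') :
    X = Y := ext_mulVec fun z => by
  rw [R.vec z]; simp only [mulVec_add, mulVec_smul, h1, h2, h3]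

theorem hh_w (l : F) : hh B w w' l *ᵥ w = l • w := by
  simp only [hh, add_mulVec, smul_mulVec, rf_mulVec, one_mulVec, R.ww, R.hw.2]; module

/-- The centraliser of `u` and `h` in one factor. -/
theorem cent {Y : Mk 3 F} {l : F} (l0 : l ≠ 0) (l1 : l ≠ 1) (hu : Y * eu B w v = eu B w v * Y)
    (hh' : Y * hh B w w' l = hh B w w' l * Y) :
    Y = B.f (Y *ᵥ w) w' • 1 + B.f (Y *ᵥ w') w' • rf B w w ∧ (l ^ 2 ≠ 1 → B.f (Y *ᵥ w') w' = 0) := by
  have c1 : Commute (eu B w v - 1) Y := (Commute.symm hu).sub_left (Commute.one_left _)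
  have c2 : Commute (rf B w w) Y := by
    have := c1.pow_left 2
    rwa [eu_sq R.o R.hw.2 R.vw, Commute.smul_left_iff₀ (neg_ne_zero.2 R.vv)] at this
  have c3 : Commute (rf B w v - rf B v w) Y := by
    have := c1.add_left (c2.smul_left (B.f v v / 2))
    rwa [eu, show ∀ a b : Mk 3 F, 1 + a - b - 1 + b = a from fun a b => by abel] at this
  have e1 := congrArg (· *ᵥ w') c2.eq
  have e2 := congrArg (· *ᵥ v) c3.eq
  have e3 := congrArg (· *ᵥ v) hh'
  have e4 := congrArg (· *ᵥ w') hh'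
  simp only [← mulVec_mulVec, hh, add_mulVec, sub_mulVec, smul_mulVec, rf_mulVec, one_mulVec,
    R.ww', R.vw, R.vw', R.hw'.2, one_smul, zero_smul, smul_zero, add_zero, sub_zero, mulVec_add,
    mulVec_smul] at e1 e2 e3 e4
  have l2 : l - 1 ≠ 0 := sub_ne_zero.2 l1
  have l3 : l⁻¹ - 1 ≠ 0 := sub_ne_zero.2 (by simpa using l1)
  have f1 := congrArg (B.f · w') e1
  have f2 := congrArg (B.f · w') e2
  have f3 := congrArg (B.f · w') e3
  have f4 := congrArg (B.f · w) e3
  have f5 := congrArg (B.f · v) e4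
  have f6 := congrArg (B.f · w') e4
  simp only [B.add_left, B.sub_left, B.smul_left, R.ww, R.ww', R.vw', R.wv, R.wv', R.hw.2, R.hw'.2,
    mul_one, mul_zero, add_zero, sub_zero, left_eq_add, add_eq_left, mul_eq_zero, l2, l3, false_or]
    at f1 f2 f3 f4 f5 f6
  refine ⟨R.mat ?_ ?_ ?_, fun h => ?_⟩
  · simp only [add_mulVec, smul_mulVec, rf_mulVec, one_mulVec, R.hw.2, zero_smul, smul_zero,
      add_zero, ← f1, e1]
  · rw [R.vec (Y *ᵥ v), f2, f3, f4]
    simp only [add_mulVec, smul_mulVec, rf_mulVec, one_mulVec, R.vw, zero_smul, smul_zero,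
      add_zero, zero_add, inv_mul_cancel_left₀ R.vv]
  · conv_lhs => rw [R.vec (Y *ᵥ w'), f5, f1]
    simp only [add_mulVec, smul_mulVec, rf_mulVec, one_mulVec, R.ww', mul_zero, zero_smul, one_smul,
      add_zero, add_comm]
  · have : (l ^ 2 - 1) * B.f (Y *ᵥ w') w' = 0 := by
      field_simp at f6
      linear_combination -f6
    exact (mul_eq_zero.1 this).resolve_left (sub_ne_zero.2 h)

end Fr

theorem cpt_comm {k : ℕ} {i : Fin t} {Z : EE k t F} {b : Mk k F} (l : EE k t F →ₗ[F] F)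
    (h : em i b * Z = Z * em i b) : cpt i l Z * b = b * cpt i l Z := by
  ext r s
  have h1 := cpt_spec i l Z (Pi.single r 1) (b *ᵥ Pi.single s 1)
  have h2 := cpt_spec i l Z (Pi.single r 1 ᵥ* b) (Pi.single s 1)
  rw [← ct_em_right, ← h, ct_em_left, ← h2, ← dotProduct_mulVec, mulVec_mulVec,
    mulVec_mulVec] at h1
  simpa using h1

/-- `X` commutes with the stabiliser of the point `w` in the `l`-th factor. -/
def Com (B : Frm (Fin 3) F) (w : Fin 3 → F) (l : Fin t) (X : EE 3 t F) : Prop :=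
  ∀ s ∈ G0 B, (∃ c : F, (s : Mk 3 F) *ᵥ w = c • w) → em l (s : Mk 3 F) * X = X * em l (s : Mk 3 F)

variable {i l : Fin t} {X : EE 3 t F}

theorem Com.of_inC (h : InC l X) : Com B w l X := fun _ _ _ => h _

theorem Com.ct (h : Com B w l X) (hl : i ≠ l) (φ x : Fin 3 → F) : Com B w l (ct i φ x X) :=
  fun s hs e => by
    rw [← ct_inC_left (InC.em hl _), ← ct_inC_right (InC.em hl _), h s hs e]

theorem Com.hh (h : Com B w l X) (H : O3F B) (R : Fr B w w' v) {a : F} (ha : a ≠ 0) :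
    em l (hh B w w' (a ^ 2)) * X = X * em l (hh B w w' (a ^ 2)) := by
  obtain ⟨s, hs, e⟩ := H.tor w R.hw w' R.hw' R.ww a ha
  rw [← e]; exact h s hs ⟨_, by rw [e, R.hh_w]⟩

theorem Com.eu (h : Com B w l X) (H : O3F B) (R : Fr B w w' v) :
    em l (eu B w v) * X = X * em l (eu B w v) := by
  obtain ⟨s, hs, e⟩ := H.eich w R.hw v R.vw
  rw [← e]; exact h s hs ⟨1, by rw [e, eu_w R.o R.hw.2 R.vw, one_smul]⟩

/-- The statement (C5) of the blueprint. -/
theorem Com.eq (h : Com B w l X) (H : O3F B) (R : Fr B w w' v) :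
    X = H60.Wr.ct l (ph B w') w X + em l (rf B w w) * H60.Wr.ct l (ph B w') w' X := by
  obtain ⟨a, a0, a1⟩ := H.big
  rw [← sub_eq_zero]
  refine eq_zero_of_ct (i := l) fun φ x => (Module.forall_dual_apply_eq_zero_iff F _).1 fun m => ?_
  have h1 := (R.cent (pow_ne_zero 2 a0) a1 (cpt_comm m (h.eu H R)) (cpt_comm m (h.hh H R a0))).1
  rw [ct_sub, ct_add, ct_of_inC (ct_inC _ _ _ _), ct_em_mul (ct_inC _ _ _ _), map_sub, map_add,
    map_smul, map_smul, ← cpt_spec, ← cpt_spec, ← cpt_spec, ph_dot, ph_dot]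
  conv_lhs => enter [1]; rw [h1]
  simp only [add_mulVec, smul_mulVec, one_mulVec, dotProduct_add, dotProduct_smul, smul_eq_mul]
  ring

theorem Com.inC (h : Com B w l X) (H : O3F B) (R : Fr B w w' v) {a : F} (a0 : a ≠ 0)
    (a1 : a ^ 4 ≠ 1) : InC l X := by
  have a2 : (a ^ 2) ^ 2 ≠ 1 := by rwa [← pow_mul]
  have : H60.Wr.ct l (ph B w') w' X = 0 := (Module.forall_dual_apply_eq_zero_iff F _).1 fun m => by
    rw [← cpt_spec, ph_dot]
    exact (R.cent (pow_ne_zero 2 a0) (fun e => a2 (by rw [e, one_pow])) (cpt_comm m (h.eu H R))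
      (cpt_comm m (h.hh H R a0))).2 a2
  rw [h.eq H R, this, mul_zero, add_zero]
  exact ct_inC _ _ _ _

/-- The statement (Sym) of the blueprint. -/
theorem adj_eq_of_com (H : O3F B) (R : Fr B w w' v) (h : ∀ l, Com B w l X) :
    (B.pow t).adj X = X := by
  suffices key : ∀ (S : Finset (Fin t)) (X : EE 3 t F), (∀ l, Com B w l X) → (∀ l ∉ S, InC l X) →
      (B.pow t).adj X = X from key Finset.univ X h (by simp)
  intro S
  induction S using Finset.induction_on with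
  | empty =>
    intro X _ h2
    obtain ⟨c, rfl⟩ := sc_of_inC fun l => h2 l (by simp)
    rw [Frm.adj_smul, Frm.adj_one, pow_sig, H.sig]
  | insert l S hl ih =>
    intro X h1 h2
    have h3 : ∀ x, (B.pow t).adj (ct l (ph B w') x X) = ct l (ph B w') x X := fun x => by
      refine ih _ (fun j => ?_) fun j hj => ?_ <;> by_cases e : j = l
      · subst e; exact Com.of_inC (ct_inC _ _ _ _)
      · exact (h1 j).ct (Ne.symm e) _ _
      · subst e; exact ct_inC _ _ _ _
      · exact ct_inC_of e (h2 j (by simp [e, hj])) _ _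
    rw [(h1 l).eq H R, Frm.adj_add, Frm.adj_mul, h3, h3, adj_em, adj_rf' R.o, ct_inC]

/-- A skew component vanishes. -/
theorem gam_zero (H : O3F B) (R : Fr B w w' v) {m : Fin t} {A γ : EE 3 t F} (hA : InA m A)
    (hγ : InC m γ) (hs : (B.pow t).adj γ = -γ)
    (h : ∀ l, l ≠ m → Com B w l (A + em m (rf B w w) * γ)) : γ = 0 := by
  have h1 : (B.pow t).adj γ = γ := adj_eq_of_com H R fun l => by
    by_cases e : l = m
    · subst e; exact Com.of_inC hγ
    intro s hs' hc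
    have h2 := h l e s hs' hc
    rw [mul_add, add_mul, hA.inC e, add_right_inj, ← mul_assoc, em_comm e, mul_assoc,
      mul_assoc] at h2
    exact em_cancel (rf_ne_zero R.hw.1 R.hw.1) ((InC.em (Ne.symm e) _).mul hγ)
      (hγ.mul (InC.em (Ne.symm e) _)) h2
  refine smul_right_injective _ H.two ?_
  change (2 : F) • γ = (2 : F) • 0
  rw [two_smul, smul_zero]
  nth_rewrite 1 [← h1]
  rw [hs, neg_add_cancel]

end H59.O3
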