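/- Tensor-induced subgroups: the end of the argument for symplectic and orthogonal groups. -/
import Cfsg.Agent.H60.WrKit1
import Cfsg.Agent.H60.Bridge
import Cfsg.Agent.H62.SpFull

set_option autoImplicit false

namespace H59.WrEnd
open Cfsg Cfsg.Geo Matrix H19 Module H60 H60.Wr H56 QuadraticMap
open scoped MatrixGroups

universe u

theorem ml_mem {F : Type*} [Field F] {ι : Type} [Fintype ι] [DecidableEq ι] {W N : Type*}
    [AddCommGroup W] [Module F W] [AddCommGroup N] [Module F N]
    (f : MultilinearMap F (fun _ : ι => W) N) (U : Submodule F N) (S : ι → Set W)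
    (h : ∀ x, (∀ j, x j ∈ S j) → f x ∈ U) (y : ι → W) (hy : ∀ j, y j ∈ Submodule.span F (S j)) :
    f y ∈ U := by
  have key : ∀ s : Finset ι, ∀ y : ι → W, (∀ j ∈ s, y j ∈ Submodule.span F (S j)) →
      (∀ j ∉ s, y j ∈ S j) → f y ∈ U := by
    intro s
    induction s using Finset.induction_on with
    | empty => exact fun y _ h2 => h y fun j => h2 j (by simp)
    | insert i s hi ih =>
      intro y h1 h2
      have : Submodule.span F (S i) ≤ U.comap (f.toLinearMap y i) :=
        Submodule.span_le.2 fun a ha => ih _ (fun j hj => by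
          rw [Function.update_of_ne (by rintro rfl; exact hi hj)]
          exact h1 j (by simp [hj])) fun j hj => by
          by_cases hji : j = i
          · subst hji; simpa using ha
          · rw [Function.update_of_ne hji]; exact h2 j (by simp [hj, hji])
      simpa using this (h1 i (by simp))
  exact key Finset.univ y (fun j _ => hy j) (by simp)

variable {F : Type u} [Field F] {k t : ℕ}

/-- Pure tensors as a multilinear map. -/
def pvM (F : Type u) [Field F] (k t : ℕ) :
    MultilinearMap F (fun _ : Fin t => Fin k → F) (VV k t F) :=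
  MultilinearMap.pi fun p => (MultilinearMap.mkPiAlgebra F (Fin t) F).compLinearMap
    fun i => LinearMap.proj (p i)

theorem pvM_apply (x : Fin t → Fin k → F) : pvM F k t x = pv x := by
  ext p; simp [pvM, pv]

theorem pv_mem (U : Submodule F (VV k t F)) (S : Fin t → Set (Fin k → F))
    (h : ∀ x, (∀ j, x j ∈ S j) → pv x ∈ U) (y : Fin t → Fin k → F)
    (hy : ∀ j, y j ∈ Submodule.span F (S j)) : pv y ∈ U := by
  simpa only [pvM_apply] using ml_mem (pvM F k t) U S (by simpa only [pvM_apply] using h) y hy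

theorem eq_top_of_pv {U : Submodule F (VV k t F)} (h : ∀ x, pv x ∈ U) : U = ⊤ := by
  rw [eq_top_iff, ← span_eq_top_of_single (S := (U : Set (VV k t F))), Submodule.span_eq]
  intro p
  have : (pv fun j => Pi.single (p j) 1 : VV k t F) = Pi.single p 1 := by
    ext a
    simp [pv, Pi.single_apply, Finset.prod_ite_zero, funext_iff]
  exact this ▸ h _

theorem pv_eq_zero {x : Fin t → Fin k → F} {j : Fin t} (h : x j = 0) : pv x = 0 := by
  ext p; exact Finset.prod_eq_zero (Finset.mem_univ j) (by simp [h])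

theorem pv_dot (x y : Fin t → Fin k → F) : pv x ⬝ᵥ pv y = ∏ j, x j ⬝ᵥ y j := by
  simp only [dotProduct, pv, Finset.prod_univ_sum, Fintype.piFinset_univ, Finset.prod_mul_distrib]

theorem pure_ro (x φ : Fin t → Fin k → F) (v : VV k t F) :
    pure (fun j => ro (x j) (φ j)) *ᵥ v = (pv φ ⬝ᵥ v) • pv x := by
  ext p
  simp only [mulVec, dotProduct, pure_apply, vecMulVec_apply, pv, Finset.prod_mul_distrib,
    Pi.smul_apply, smul_eq_mul, Finset.sum_mul]
  exact Finset.sum_congr rfl fun q _ => by ring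

variable (B : Frm (Fin k) F)

theorem dot_ph (x v : Fin k → F) : ph B v ⬝ᵥ x = B.f x v := by rw [B.eq_dot, dotProduct_comm, ph]

theorem dot_pv_ph (y : Fin t → Fin k → F) (v : VV k t F) :
    pv (fun j => ph B (y j)) ⬝ᵥ v = (B.pow t).f v (pv y) := by
  rw [(B.pow t).eq_dot, dotProduct_comm, Frm.gram_pow]
  congr 1
  have : (B.pow t).σ ∘ pv y = fun p => ∏ i, (B.σ ∘ y i) (p i) := by
    ext p; exact map_prod B.σ _ _
  rw [this, pure_mulVec_pure]; rfl

theorem f_pv (x y : Fin t → Fin k → F) : (B.pow t).f (pv x) (pv y) = ∏ j, B.f (x j) (y j) := by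
  rw [← dot_pv_ph, pv_dot]; simp only [dot_ph]

theorem pure_rf (x y : Fin t → Fin k → F) (v : VV k t F) :
    pure (fun j => rf B (x j) (y j)) *ᵥ v = (B.pow t).f v (pv y) • pv x := by
  rw [pure_ro, dot_pv_ph]

theorem exists_f_one {x : Fin k → F} (hx : x ≠ 0) : ∃ y, B.f y x = 1 := by
  obtain ⟨y, hy⟩ := (B.isNondegenerateForm x hx).1
  exact ⟨(B.f y x)⁻¹ • y, by rw [B.smul_left, inv_mul_cancel₀ hy]⟩

theorem exists_f_two {x y : Fin k → F} (hx : x ≠ 0) (hy : y ≠ 0) :
    ∃ z, B.f z x ≠ 0 ∧ B.f z y ≠ 0 := by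
  obtain ⟨z, -, h1, h2⟩ := exists_not_mem_two (W := ⊤) (A := pp B x) (B := pp B y)
    (fun h => by
      obtain ⟨z, hz⟩ := exists_f_one B hx
      exact one_ne_zero (hz.symm.trans (h (Submodule.mem_top (x := z)))))
    (fun h => by
      obtain ⟨z, hz⟩ := exists_f_one B hy
      exact one_ne_zero (hz.symm.trans (h (Submodule.mem_top (x := z)))))
  exact ⟨z, h1, h2⟩

theorem jobSpEnd : JobSpEnd.{u} := by
  intro F _ _ k t B M hσ halt h2 ht hN g hg
  rcases Nat.eq_zero_or_pos k with rfl | hk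
  · have : IsEmpty (Fin t → Fin 0) := ⟨fun f => (f ⟨0, ht.pos⟩).elim0⟩
    rw [Subsingleton.elim g 1]; exact M.one_mem
  have hσ' : (B.pow t).σ = RingEquiv.refl F := RingEquiv.ext hσ
  set x₀ : Fin k → F := Pi.single ⟨0, hk⟩ 1 with hx₀
  have hx : x₀ ≠ 0 := by simp [hx₀]
  have hε : B.ε = -1 := by
    obtain ⟨y, hy⟩ := exists_f_one B hx
    have h1 := halt (y + x₀)
    rw [B.add_left, B.add_right, B.add_right, halt, halt, B.symm y x₀, hσ, hy] at h1
    linear_combination h1
  let b := H62.bilinOf ((B.pow t).isBilinearForm hσ')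
  have hb : b.Nondegenerate := H62.bilinOf_nondegenerate _ (B.pow t).isNondegenerateForm
  have hA : b.IsAlt := fun v => by
    have h1 := (B.pow t).symm v v
    rw [hσ', show (B.pow t).ε = B.ε ^ t from rfl, hε, ht.neg_one_pow] at h1
    refine mul_left_cancel₀ h2 (?_ : 2 * (B.pow t).f v v = 2 * 0)
    rw [RingEquiv.refl_apply] at h1
    linear_combination h1
  let M' := M.map (H62.toLE (ι := Fin t → Fin k) (F := F)).toMonoidHom
  have hF : ∀ x, H62.FullSp M' b (pv x) := fun x => by
    by_cases h0 : ∃ j, x j = 0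
    · obtain ⟨j, hj⟩ := h0
      rw [pv_eq_zero hj]; exact H62.FullSp.zero
    push Not at h0
    intro c
    obtain ⟨m, hm, he⟩ := hN x (fun j => ⟨h0 j, halt _⟩) c trivial
    refine ⟨_, ⟨m, hm, rfl⟩, fun v => ?_⟩
    change (m : EE k t F) *ᵥ v = _
    rw [he, add_mulVec, one_mulVec, smul_mulVec, pure_rf, smul_smul]; rfl
  obtain ⟨A, h1, h3, h4⟩ := H62.exists_max_full hA h2 (hF fun _ => x₀)
  have hT : A = ⊤ := eq_top_of_pv fun y => by
    by_cases h0 : ∃ j, y j = 0
    · obtain ⟨j, hj⟩ := h0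
      rw [pv_eq_zero hj]; exact A.zero_mem
    push Not at h0
    choose z hz1 hz2 using fun j => exists_f_two B hx (h0 j)
    refine h4 _ (hF y) _ (h4 _ (hF z) _ h1 ?_) ?_
    · simp only [b, H62.bilinOf_apply, f_pv, Finset.prod_ne_zero_iff]
      exact fun j _ h => hz1 j (B.eq_zero_comm.1 h)
    · simp only [b, H62.bilinOf_apply, f_pv, Finset.prod_ne_zero_iff]
      exact fun j _ => hz2 j
  obtain ⟨g', hg', he⟩ := H62.mem_of_forall_fullSp hb hA
    (fun v => h3 v (hT ▸ Submodule.mem_top)) (H62.toLE g) hg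
  exact H62.toLE.injective he ▸ hg'

/-! ### The orthogonal case -/

section orth
variable {B} {Q : QuadraticForm F (VV k t F)} {M : Subgroup (GG k t F)} {N : Subgroup (O Q)}

theorem pol_zero (hQ : QF B Q) {x y : Fin t → Fin k → F} {j : Fin t} (h : B.f (x j) (y j) = 0) :
    polar Q (pv x) (pv y) = 0 := by
  obtain ⟨c, -, hc⟩ := hQ.pol
  rw [hc, f_pv, Finset.prod_eq_zero (Finset.mem_univ j) h, mul_zero]

theorem pol_ne (hQ : QF B Q) {x y : Fin t → Fin k → F} (h : ∀ j, B.f (x j) (y j) ≠ 0) :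
    polar Q (pv x) (pv y) ≠ 0 := by
  obtain ⟨c, h0, hc⟩ := hQ.pol
  rw [hc, f_pv]
  exact mul_ne_zero h0 (Finset.prod_ne_zero_iff.2 fun j _ => h j)

theorem nondeg (hQ : QF B Q) : Q.polarBilin.Nondegenerate := by
  obtain ⟨c, h0, hc⟩ := hQ.pol
  exact nondegenerate_of_polar fun x hx => (B.pow t).nondeg' x fun y =>
    (mul_eq_zero.1 ((hc x y).symm.trans (hx y))).resolve_left h0

theorem move (hQ : QF B Q) {x z a b : Fin t → Fin k → F} (hz : pv z ∈ AS N (pv x))
    (hb : pv b ∈ AS N (pv a)) {i₁ i₂ i₃ i₄ : Fin t} (ha : B.f (a i₁) (a i₁) = 0)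
    (hax : B.f (a i₂) (x i₂) = 0) (hbx : B.f (b i₃) (x i₃) = 0) (haz : B.f (a i₄) (z i₄) = 0)
    (hbz : ∀ j, B.f (b j) (z j) ≠ 0) : pv a ∈ AS N (pv x) := by
  have h1 := apply_mem_AS_of_fix (eich_mem_of_AS hb)
    (eich_apply_of_orth_orth (pol_zero hQ hax) (pol_zero hQ hbx)) hz
  rw [eich_apply_of_orth (hQ.sing a i₁ ha) hb.1 (pol_zero hQ haz)] at h1
  have h2 := (AS N (pv x)).smul_mem (polar Q (pv b) (pv z))⁻¹ ((AS N (pv x)).sub_mem h1 hz)
  rwa [add_sub_cancel_left, inv_smul_smul₀ (pol_ne hQ hbz)] at h2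

theorem full_of_pure (hQ : QF B Q) {x x' : Fin t → Fin k → F} (hx' : ∀ j, B.f (x' j) (x j) = 1)
    (h : ∀ a d, B.f (a d) (x d) = 0 → pv a ∈ AS N (pv x)) : Full N (pv x) := by
  have hT : AS N (pv x) ⊔ F ∙ pv x' = ⊤ := eq_top_of_pv fun y => by
    refine pv_mem _ (fun j => {w | B.f w (x j) = 0 ∨ w = x' j}) (fun a ha => ?_) y fun j => ?_
    · by_cases h1 : ∃ d, B.f (a d) (x d) = 0
      · obtain ⟨d, hd⟩ := h1
        exact Submodule.mem_sup_left (h a d hd)
      · rw [show a = x' from funext fun j => (ha j).resolve_left fun h2 => h1 ⟨j, h2⟩]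
        exact Submodule.mem_sup_right (Submodule.mem_span_singleton_self _)
    · rw [← sub_add_cancel (y j) (B.f (y j) (x j) • x' j)]
      exact Submodule.add_mem _ (Submodule.subset_span (Or.inl (by
        rw [B.sub_left, B.smul_left, hx', mul_one, sub_self])))
        (Submodule.smul_mem _ _ (Submodule.subset_span (Or.inr rfl)))
  refine full_of_ort_le fun v hv => ?_
  obtain ⟨u, hu, _, hw, rfl⟩ := Submodule.mem_sup.1 (hT ▸ Submodule.mem_top : v ∈ _)
  obtain ⟨c, rfl⟩ := Submodule.mem_span_singleton.1 hw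
  rw [mem_ort, polar_add_right, hu.1, zero_add, polar_smul_right, smul_eq_mul, mul_eq_zero,
    polar_comm, or_iff_left (pol_ne hQ fun j => by rw [hx']; exact one_ne_zero)] at hv
  simpa [hv] using hu

theorem mem_AS_of (hQ : QF B Q) {X Z : VV k t F} (hX : Q X = 0)
    (hZ : Q Z = 0) (hXZ : polar Q X Z = 0) (h : ∀ c : F, ∃ m ∈ M, ∀ v, (m : EE k t F) *ᵥ v =
      v + c • ((B.pow t).f v Z • X - (B.pow t).f v X • Z)) : Z ∈ AS (M.comap (toGL Q)) X := by
  obtain ⟨c₀, -, hc⟩ := hQ.pol
  refine ⟨hXZ, fun c => ?_⟩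
  obtain ⟨m, hm, he⟩ := h (c * c₀)
  have : toGL Q (eich Q X (c • Z)) = m := Units.ext (matrix_ext_mulVec fun v => by
    rw [toGL_mulVec, he, eich_apply hX (by simp [hXZ]), Q_smul, hZ, polar_smul_left,
      polar_comm Q Z, polar_comm Q X, hc, hc]
    module)
  rwa [Subgroup.mem_comap, this]

theorem le_of_full [Finite F] (hQ : QF B Q) (h5 : 5 ≤ k ^ t) {x x' : Fin t → Fin k → F} {i : Fin t}
    (hx : B.f (x i) (x i) = 0) (hx' : B.f (x' i) (x' i) = 0) (h : ∀ j, B.f (x j) (x' j) ≠ 0)
    (h1 : Full (M.comap (toGL Q)) (pv x)) (h2 : Full (M.comap (toGL Q)) (pv x')) :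
    omegaGL ⇑Q ≤ M := by
  rw [omegaGL_eq, Subgroup.map_le_iff_le_comap]
  exact commutator_le_of_full₂ (nondeg hQ) (by simpa using h5) h1 h2 (hQ.sing x i hx)
    (hQ.sing x' i hx') (pol_ne hQ h)

theorem pure_update_rf (x : Fin t → Fin k → F) (d : Fin t) (y : Fin k → F) (v : VV k t F) :
    pure (Function.update (fun j => rf B (x j) (x j)) d (rf B (x d) y - rf B y (x d))) *ᵥ v =
      (B.pow t).f v (pv (Function.update x d y)) • pv x -
        (B.pow t).f v (pv x) • pv (Function.update x d y) := by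
  rw [pure_update_sub, sub_mulVec, ← pure_rf, ← pure_rf]
  congr 3 <;> funext j <;> by_cases h : j = d
  · subst h; simp
  · simp [Function.update_of_ne h]
  · subst h; simp
  · simp [Function.update_of_ne h]

theorem exists_ne' (ht : 2 ≤ t) (d : Fin t) : ∃ e, e ≠ d :=
  have : Nontrivial (Fin t) := Fin.nontrivial_iff_two_le.2 ht
  exists_ne d

omit [Field F] in
theorem forall_update {P : Fin t → (Fin k → F) → Prop} {x : Fin t → Fin k → F} {d : Fin t}
    {y : Fin k → F} (h1 : P d y) (h2 : ∀ j, j ≠ d → P j (x j)) (j : Fin t) :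
    P j (Function.update x d y j) := by
  by_cases h : j = d
  · subst h; simpa using h1
  · rw [Function.update_of_ne h]; exact h2 j h

end orth

theorem jobOEnd : JobOEnd.{u} := by
  intro F _ _ k t B M Q hC hQ _ hR
  set N := M.comap (toGL Q) with hN
  have cm : ∀ {u v}, B.f u v = 0 → B.f v u = 0 := B.eq_zero_comm.1
  have cm' : ∀ {u v}, B.f u v ≠ 0 → B.f v u ≠ 0 := fun h h' => h (cm h')
  have one : ∀ {u v}, B.f u v = 1 → B.f u v ≠ 0 := fun h => h ▸ one_ne_zero
  have iso_span : Submodule.span F (IsoV B) = ⊤ := by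
    obtain ⟨w, hw⟩ := hC.gf.ex
    exact eq_top_iff.2 ((hC.gf.sp w hw.1).ge.trans (Submodule.span_mono fun y hy => hy.1))
  have p0 : ∀ x, (∀ j, x j ∈ IsoV B) → ∀ d y, B.f y (x d) = 0 →
      pv (Function.update x d y) ∈ AS N (pv x) := fun x hx d y hy => by
    obtain ⟨e, he⟩ := exists_ne' hC.t2 d
    refine mem_AS_of hQ (hQ.sing x d (hx d).2) (hQ.sing _ e (by
      rw [Function.update_of_ne he]; exact (hx e).2)) (pol_zero hQ (j := d) (by
        simpa using cm hy)) fun c => ?_
    obtain ⟨m, hm, hme⟩ := hR d x hx y hy c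
    refine ⟨m, hm, fun v => ?_⟩
    rw [hme, neg_one_smul, ← sub_eq_add_neg, add_mulVec, one_mulVec, smul_mulVec, pure_update_rf]
  have p1 : ∀ x, (∀ j, x j ∈ IsoV B) → ∀ d a, a d = x d → pv a ∈ AS N (pv x) := by
    intro x hx d a ha
    refine pv_mem _ (fun j => if j = d then {x d} else {y | y ∈ IsoV B ∧ B.f (x j) y ≠ 0})
      (fun a ha => ?_) a fun j => ?_
    swap
    · split_ifs with h
      · subst h; exact Submodule.subset_span ha
      · rw [hC.gf.sp _ (hx j).1]; trivial
    have had : a d = x d := by simpa using ha d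
    have haj : ∀ j, j ≠ d → a j ∈ IsoV B ∧ B.f (x j) (a j) ≠ 0 := fun j hj => by
      simpa [hj] using ha j
    have hai : ∀ j, a j ∈ IsoV B := fun j => by
      by_cases h : j = d
      · rw [h, had]; exact hx d
      · exact (haj j h).1
    obtain ⟨y, hy1, hy2, hy3⟩ : ∃ y, y ∈ IsoV B ∧ B.f y (x d) = 0 ∧ y ∉ F ∙ x d := by
      by_contra h
      have := hC.gf2.pp _ (hx d) (show x d ∈ pp B (x d) from (hx d).2)
      rw [Set.eq_empty_of_forall_notMem (s := {y | _}) fun y hy => h ⟨y, hy⟩] at this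
      exact (hx d).1 (by simpa using this)
    obtain ⟨b, -, hb2, hb3⟩ := hC.gf2.opp y hy1 _ (hx d) hy2 hy3
    refine move hQ (p0 x hx d y hy2) (p0 a hai d b (had ▸ cm hb3)) (i₂ := d) (i₃ := d) (i₄ := d)
      (hai d).2 (had ▸ (hx d).2) (by simpa using cm hb3) (by simpa [had] using cm hy2) fun j => ?_
    by_cases h : j = d
    · subst h; simpa using cm' (one hb2)
    · simpa [Function.update_of_ne h] using cm' (haj j h).2
  have p2 : ∀ x, (∀ j, x j ∈ IsoV B) → ∀ a, (∀ j, a j ∈ IsoV B) → ∀ d e, e ≠ d →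
      B.f (a d) (x d) = 0 → B.f (a e) (x e) = 0 → pv a ∈ AS N (pv x) := by
    intro x hx a ha d e he hd hae
    obtain ⟨y, hy⟩ := exists_f_one B (ha d).1
    choose b hb using fun j => exists_f_one B (hx j).1
    refine move hQ (p1 x hx e (Function.update x d y) (Function.update_of_ne he _ _))
      (p1 a ha d (Function.update b d (a d)) (by simp)) (i₂ := d) (i₃ := d) (i₄ := e)
      (ha d).2 hd (by simpa using hd) (by rwa [Function.update_of_ne he]) fun j => ?_
    by_cases h : j = d
    · subst h; simpa using cm' (one hy)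
    · simpa [Function.update_of_ne h] using one (hb j)
  have p3 : ∀ x, (∀ j, x j ∈ IsoV B) → ∀ a d, B.f (a d) (x d) = 0 → pv a ∈ AS N (pv x) := by
    intro x hx a d hd
    refine pv_mem _ (fun j => if j = d then {y | y ∈ IsoV B ∧ B.f y (x d) = 0 ∧ y ∉ F ∙ x d}
      else IsoV B) (fun a ha => ?_) a fun j => ?_
    swap
    · split_ifs with h
      · subst h; exact hC.gf2.pp _ (hx j) hd
      · rw [iso_span]; trivial
    obtain ⟨h1, h2, h3⟩ : a d ∈ IsoV B ∧ B.f (a d) (x d) = 0 ∧ a d ∉ F ∙ x d := by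
      have := ha d
      rwa [if_pos rfl] at this
    have hai : ∀ j, a j ∈ IsoV B := fun j => by
      by_cases h : j = d
      · rwa [h]
      · simpa [h] using ha j
    obtain ⟨e, he⟩ := exists_ne' hC.t2 d
    obtain ⟨y, hy1, hy2, hy3⟩ := hC.gf2.opp _ h1 _ (hx d) h2 h3
    obtain ⟨z, hz1, hz2, hz3⟩ := hC.gf2.two _ (hx e) _ (hai e)
    set Z := Function.update (Function.update x e z) d y with hZ
    have hZi : ∀ j, Z j ∈ IsoV B := forall_update (P := fun _ w => w ∈ IsoV B) hy1 fun j _ =>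
      forall_update (P := fun _ w => w ∈ IsoV B) hz1 (fun j _ => hx j) j
    have hZd : Z d = y := by simp [hZ]
    have hZe : Z e = z := by simp [hZ, Function.update_of_ne he]
    choose b hb using fun j => exists_f_one B (hZi j).1
    refine move hQ (p2 x hx Z hZi d e he (hZd ▸ cm hy3) (hZe ▸ hz2))
      (p1 a hai d (Function.update b d (a d)) (by simp)) (i₂ := d) (i₃ := d) (i₄ := e)
      h1.2 h2 (by simpa using h2) (hZe ▸ cm hz3) fun j => ?_
    by_cases h : j = d
    · subst h; simpa [hZd] using one hy2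
    · simpa [Function.update_of_ne h] using one (hb j)
  have full : ∀ x, (∀ j, x j ∈ IsoV B) → Full N (pv x) := fun x hx => by
    choose b hb using fun j => exists_f_one B (hx j).1
    exact full_of_pure hQ hb (p3 x hx)
  obtain ⟨w, hw⟩ := hC.gf.ex
  obtain ⟨w', hw', hww⟩ := hC.gf.hyp w hw
  have hk : 4 ≤ k := by rcases hC.kind with h | h <;> omega
  exact le_of_full hQ (le_trans (by norm_num : 5 ≤ 4 ^ 2)
    ((Nat.pow_le_pow_left hk 2).trans (Nat.pow_le_pow_right (by omega) hC.t2)))
    (i := ⟨0, by have := hC.t2; omega⟩) hw.2 hw'.2 (fun _ => one hww) (full _ fun _ => hw)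
    (full _ fun _ => hw')

/-! ### Factors of dimension two -/

section two
variable {B : Frm (Fin 2) F}

theorem alt_swap (halt : ∀ v, B.f v v = 0) (u v : Fin 2 → F) : B.f u v = -B.f v u := by
  have h1 := halt (u + v)
  rw [B.add_left, B.add_right, B.add_right, halt, halt] at h1
  linear_combination h1

theorem f_two (hσ : ∀ a, B.σ a = a) (halt : ∀ v, B.f v v = 0) : ∃ g : F, g ≠ 0 ∧
    ∀ u v, B.f u v = g * (u 0 * v 1 - u 1 * v 0) := by
  have key : ∀ u v, B.f u v = B.f (Pi.single 0 1) (Pi.single 1 1) * (u 0 * v 1 - u 1 * v 0) :=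
    fun u v => by
      rw [B.eq_formOfGram]
      simp only [formOfGram, Fin.sum_univ_two, gramMatrix, hσ, halt,
        alt_swap halt (Pi.single 1 1) (Pi.single 0 1)]
      ring
  refine ⟨_, fun h => ?_, key⟩
  have := B.nondeg (Pi.single 0 1) fun x => by rw [key, h, zero_mul]
  simpa using congrFun this 0

theorem cramer_two (hσ : ∀ a, B.σ a = a) (halt : ∀ v, B.f v v = 0) (x y z : Fin 2 → F) :
    B.f z y • x - B.f z x • y = B.f x y • z := by
  obtain ⟨g, -, hg⟩ := f_two hσ halt
  ext i; fin_cases i <;> simp [hg] <;> ring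

theorem rf_mulVec {k : ℕ} (B : Frm (Fin k) F) (x y z : Fin k → F) :
    rf B x y *ᵥ z = B.f z y • x := by rw [ro_mulVec, dot_ph]

theorem rf_sub_rf (hσ : ∀ a, B.σ a = a) (halt : ∀ v, B.f v v = 0) (x y : Fin 2 → F) :
    rf B x y - rf B y x = B.f x y • 1 := matrix_ext_mulVec fun z => by
  rw [sub_mulVec, rf_mulVec, rf_mulVec, cramer_two hσ halt, smul_mulVec, one_mulVec]

theorem mem_span_two (hσ : ∀ a, B.σ a = a) (halt : ∀ v, B.f v v = 0) {x a : Fin 2 → F}
    (hx : x ≠ 0) (h : B.f a x = 0) : a ∈ Submodule.span F {x} := by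
  obtain ⟨y, hy⟩ := exists_f_one B hx
  have := cramer_two hσ halt y x a
  rw [h, hy, one_smul, zero_smul, zero_sub] at this
  rw [← this]
  exact neg_mem (Submodule.smul_mem _ _ (Submodule.mem_span_singleton_self x))

theorem span_ne_two {x : Fin 2 → F} (hx : x ≠ 0) (a : Fin 2 → F) : a ∈ Submodule.span F {y | B.f y x ≠ 0} := by
  by_cases h : B.f a x = 0
  · obtain ⟨y, hy⟩ := exists_f_one B hx
    rw [← add_sub_cancel_right a y]
    exact sub_mem (Submodule.subset_span (by simp [B.add_left, h, hy]))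
      (Submodule.subset_span (by simp [hy]))
  · exact Submodule.subset_span h

end two

theorem jobK2End : JobK2End.{u} := by
  intro F _ _ t B M Q hC ht hQ _ hO
  set N := M.comap (toGL Q) with hN
  have hσ := hC.sig
  have halt := hC.alt
  have t4 : 4 ≤ t := by have := hC.t3; obtain ⟨r, rfl⟩ := ht; omega
  have cm' : ∀ {u v}, B.f u v ≠ 0 → B.f v u ≠ 0 := fun h h' => h (B.eq_zero_comm.1 h')
  have one : ∀ {u v}, B.f u v = 1 → B.f u v ≠ 0 := fun h => h ▸ one_ne_zero
  have nz : ∀ {u v}, B.f u v ≠ 0 → u ≠ 0 := fun h h' => h (by simp [h'])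
  have p0 : ∀ (x : Fin t → Fin 2 → F) d y, pv (Function.update x d y) ∈ AS N (pv x) := by
    intro x d y
    obtain ⟨e, he⟩ := exists_ne' (by omega) d
    refine mem_AS_of hQ (hQ.sing x d (halt _)) (hQ.sing _ d (halt _)) (pol_zero hQ (j := e) (by
      rw [Function.update_of_ne he, halt])) fun c => ?_
    obtain ⟨m, hm, hme⟩ := hO d x (c * B.f (x d) y)
    refine ⟨m, hm, fun v => ?_⟩
    rw [hme, mul_smul, ← pure_update_smul, ← rf_sub_rf hσ halt, add_mulVec, one_mulVec,
      smul_mulVec, pure_update_rf]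
  have p1 : ∀ x : Fin t → Fin 2 → F, (∀ j, x j ≠ 0) → ∀ d e, e ≠ d → ∀ a, a d = x d → a e = x e →
      pv a ∈ AS N (pv x) := by
    intro x hx d e he a h1 h2
    refine pv_mem _ (fun j => if j = d ∨ j = e then {x j} else {y | B.f y (x j) ≠ 0})
      (fun a ha => ?_) a fun j => ?_
    swap
    · split_ifs with h
      · exact Submodule.subset_span (by rcases h with rfl | rfl <;> assumption)
      · exact span_ne_two (hx j) _
    have had : a d = x d := by simpa using ha d
    have hae : a e = x e := by simpa using ha e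
    obtain ⟨y, hy⟩ := exists_f_one B (hx d)
    obtain ⟨b, hb⟩ := exists_f_one B (hx e)
    refine move hQ (p0 x d y) (p0 a e b) (i₁ := d) (i₂ := d) (i₃ := d) (i₄ := e) (halt _)
      (by rw [had, halt]) (by rw [Function.update_of_ne he.symm, had, halt])
      (by rw [Function.update_of_ne he, hae, halt]) fun j => ?_
    by_cases h : j = d
    · subst h; simpa [Function.update_of_ne he.symm, had] using cm' (one hy)
    by_cases h' : j = e
    · subst h'; simpa [Function.update_of_ne he] using one hb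
    · simpa [Function.update_of_ne h, Function.update_of_ne h', h, h'] using ha j
  have p2 : ∀ x : Fin t → Fin 2 → F, (∀ j, x j ≠ 0) → ∀ a d, B.f (a d) (x d) = 0 →
      pv a ∈ AS N (pv x) := by
    intro x hx a d hd
    refine pv_mem _ (fun j => if j = d then {x j} else {y | B.f y (x j) ≠ 0})
      (fun a ha => ?_) a fun j => ?_
    swap
    · split_ifs with h
      · subst h; exact mem_span_two hσ halt (hx j) hd
      · exact span_ne_two (hx j) _
    have had : a d = x d := by simpa using ha d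
    have haj : ∀ j, j ≠ d → B.f (a j) (x j) ≠ 0 := fun j hj => by simpa [hj] using ha j
    obtain ⟨e, he⟩ := exists_ne' (by omega) d
    obtain ⟨i, hi, j, hj, hij⟩ := Finset.one_lt_card.1
      (show 1 < (({d, e} : Finset (Fin t))ᶜ).card by
        rw [Finset.card_compl, Finset.card_pair he.symm, Fintype.card_fin]; omega)
    simp only [Finset.mem_compl, Finset.mem_insert, Finset.mem_singleton, not_or] at hi hj
    obtain ⟨y, hy⟩ := exists_f_one B (hx d)
    obtain ⟨b, hb⟩ := exists_f_one B (nz (haj e he))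
    refine move hQ (p1 x hx i j hij.symm (Function.update (Function.update x e (a e)) d y)
      (by simp [hi]) (by simp [hj])) (p0 a e b) (i₁ := d) (i₂ := d) (i₃ := d) (i₄ := e) (halt _)
      (by rw [had, halt]) (by rw [Function.update_of_ne he.symm, had, halt])
      (by simp [he, halt]) fun l => ?_
    by_cases h : l = d
    · subst h; simpa [Function.update_of_ne he.symm, had] using cm' (one hy)
    by_cases h' : l = e
    · subst h'; simpa [Function.update_of_ne he] using one hb
    · simpa [Function.update_of_ne h, Function.update_of_ne h'] using haj l h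
  have full : ∀ x : Fin t → Fin 2 → F, (∀ j, x j ≠ 0) → Full N (pv x) := fun x hx => by
    choose b hb using fun j => exists_f_one B (hx j)
    exact full_of_pure hQ hb (p2 x hx)
  have hw : (Pi.single 0 1 : Fin 2 → F) ≠ 0 := by simp
  obtain ⟨w', hw'⟩ := exists_f_one B hw
  exact le_of_full hQ (le_trans (by norm_num : 5 ≤ 2 ^ 4) (Nat.pow_le_pow_right (by omega) t4))
    (i := ⟨0, by omega⟩) (halt _) (halt _) (fun _ => one hw') (full _ fun _ => nz (one hw'))
    (full _ fun _ => hw)

end H59.WrEnd
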