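/- Tensor-induced subgroups with orthogonal factors of dimension three: the job CB. -/
import Cfsg.Agent.H59.O3CBa

set_option autoImplicit false

namespace H59.O3
open Cfsg Cfsg.Geo Matrix H19 Module H60.Wr
open scoped MatrixGroups commutatorElement

universe u

variable {F : Type u} [Field F] {t : ℕ} {B : Frm (Fin 3) F} {w w' v : Fin 3 → F} {m : Fin t}
  {g : GG 3 t F}

theorem Com.inv (h : Com B w m (g : EE 3 t F)) : Com B w m ((g⁻¹ : GG 3 t F) : EE 3 t F) :=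
  fun s hs e => Commute.units_inv_right (h s hs e)

theorem Com.comm_eps (h : Com B w m (g : EE 3 t F)) (H : O3F B) (R : Fr B w w' v) :
    (g : EE 3 t F) * em m (rf B w w') = em m (rf B w w') * g -
      em m (rf B w w) * H60.Wr.ct m (ph B w') w' g := by
  have h1 := h.eq H R
  have h2 := ct_inC m (ph B w') w (g : EE 3 t F)
  have h3 := ct_inC m (ph B w') w' (g : EE 3 t F)
  generalize H60.Wr.ct m (ph B w') w (g : EE 3 t F) = X at h1 h2
  generalize H60.Wr.ct m (ph B w') w' (g : EE 3 t F) = Y at h1 h3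
  rw [h1, add_mul, mul_add, mul_assoc, ← h3, ← mul_assoc, ← mul_assoc, ← map_mul, ← map_mul,
    rf_mul_rf, rf_mul_rf, R.ww, R.hw.2, h2, zero_smul, one_smul, map_zero, zero_mul, add_zero,
    add_sub_cancel_right]

theorem Com.inC_of_eps (h : Com B w m (g : EE 3 t F)) (H : O3F B) (R : Fr B w w' v)
    (e : cj g (em m (rf B w w')) = em m (rf B w w')) : InC m (g : EE 3 t F) := by
  have h1 := h.comm_eps H R
  rw [(cj_eq_iff _ _ _).1 e, eq_sub_iff_add_eq, add_eq_left] at h1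
  rw [h.eq H R, h1, add_zero]
  exact ct_inC _ _ _ _

theorem Com.exists_gam (h : Com B w m (g : EE 3 t F)) (H : O3F B) (R : Fr B w w' v)
    (hg : g ∈ (B.pow t).Iso) {a : F} (ha : a ^ 2 = -1) : ∃ γ, InC m γ ∧ (B.pow t).adj γ = -γ ∧
      cj g (em m (rf B w w')) = em m (rf B w w') + em m (rf B w w) * γ := by
  have h2 := ct_inC m (ph B w') w ((g⁻¹ : GG 3 t F) : EE 3 t F)
  have h3 := ct_inC m (ph B w') w' (g : EE 3 t F)
  have h4 : cj g (em m (rf B w w')) = em m (rf B w w') + em m (rf B w w) *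
      -(H60.Wr.ct m (ph B w') w' g * H60.Wr.ct m (ph B w') w ((g⁻¹ : GG 3 t F) : EE 3 t F)) := by
    rw [cj_apply, h.comm_eps H R, sub_mul, Units.mul_inv_cancel_right, mul_neg, ← sub_eq_add_neg,
      ← mul_assoc, h3, mul_assoc, mul_assoc]
    congr 2
    conv_lhs => rw [h.inv.eq H R]
    rw [mul_add, ← mul_assoc, ← map_mul, N_sq R.hw, map_zero, zero_mul, add_zero]
  have h5 := (h3.mul h2).neg
  generalize -(H60.Wr.ct m (ph B w') w' (g : EE 3 t F) *
    H60.Wr.ct m (ph B w') w ((g⁻¹ : GG 3 t F) : EE 3 t F)) = γ at h4 h5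
  refine ⟨γ, h5, em_cancel (rf_ne_zero (B := B) R.hw.1 R.hw.1) (h5.adj B) h5.neg ?_, h4⟩
  have h6 := congrArg (B.pow t).adj h4
  rw [Frm.adj_cj _ (Frm.Iso_le_sim _ hg), Frm.adj_add, Frm.adj_mul, adj_em, adj_em, adj_rf' R.o,
    adj_rf' R.o, ← h5.adj B] at h6
  have h7 := (cj_eq_iff _ _ _).2 (h.hh H R (a := a) (by rintro rfl; simp at ha)).symm
  rw [ha, H60.Wr.hh, inv_neg, inv_one] at h7
  simp only [map_add, map_smul, map_one, h4, h6] at h7
  refine smul_right_injective _ H.two ?_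
  change (2 : F) • _ = (2 : F) • _
  rw [mul_neg]
  linear_combination (norm := module) -h7

/-- The subgroup `D` of the blueprint. -/
def DD (B : Frm (Fin 3) F) (w : Fin 3 → F) (M : Subgroup (GG 3 t F)) (I : Finset (Fin t))
    (m : Fin t) : Subgroup (GG 3 t F) where
  carrier := {g | g ∈ MI M I ∧ Com B w m (g : EE 3 t F)}
  one_mem' := ⟨one_mem _, Com.of_inC InC.one⟩
  mul_mem' ha hb := ⟨mul_mem ha.1 hb.1, fun s hs e =>
    Commute.mul_right (ha.2 s hs e) (hb.2 s hs e)⟩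
  inv_mem' ha := ⟨inv_mem ha.1, ha.2.inv⟩

/-- The skew elements `N γ`. -/
def WW (B : Frm (Fin 3) F) (w : Fin 3 → F) (I : Finset (Fin t)) (m : Fin t) :
    AddSubgroup (EE 3 t F) where
  carrier := {Z | (∃ γ, InC m γ ∧ (B.pow t).adj γ = -γ ∧ Z = em m (rf B w w) * γ) ∧
    ∀ l ∉ I, InC l Z}
  zero_mem' := ⟨⟨0, InC.zero, by simp, by simp⟩, fun _ _ => InC.zero⟩
  add_mem' := by
    rintro _ _ ⟨⟨a, a1, a2, rfl⟩, a3⟩ ⟨⟨b, b1, b2, rfl⟩, b3⟩
    exact ⟨⟨a + b, a1.add b1, by rw [Frm.adj_add, a2, b2, neg_add], by rw [mul_add]⟩,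
      fun l hl => (a3 l hl).add (b3 l hl)⟩
  neg_mem' := by
    rintro _ ⟨⟨a, a1, a2, rfl⟩, a3⟩
    exact ⟨⟨-a, a1.neg, by rw [Frm.adj_neg, a2], by rw [mul_neg]⟩, fun l hl => (a3 l hl).neg⟩

theorem eu_pow (H : O3 B) (hw : B.f w w = 0) (hv : B.f v w = 0) (n : ℕ) :
    eu B w v ^ n = eu B w ((n : F) • v) := by
  induction n with
  | zero => simp [eu_zero]
  | succ n ih =>
    rw [pow_succ, ih, Nat.cast_succ, add_smul, one_smul,
      eu_add H hw (by rw [B.smul_left, hv, mul_zero]) hv]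

theorem jobO3CB : JobO3CB.{u} := by
  intro hR F _ _ t B M I m H pw hm hT w hw g hg hc
  have L := H.f.toO3L
  have O := L.toO3
  obtain ⟨w', v, R⟩ := exists_fr L hw
  have hg' : Com B w m (g : EE 3 t F) := fun s hs e => congrArg Units.val (hc s hs e)
  by_cases hA : ∃ a : F, a ≠ 0 ∧ a ^ 4 ≠ 1
  · obtain ⟨a, a0, a1⟩ := hA
    exact hg'.inC H.f R a0 a1
  push Not at hA
  obtain ⟨a, a0, a1⟩ := O.big
  have a2 : a ^ 2 = -1 := by
    have : (a ^ 2 - 1) * (a ^ 2 + 1) = 0 := by linear_combination hA a a0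
    exact eq_neg_of_add_eq_zero_left ((mul_eq_zero.1 this).resolve_left (sub_ne_zero.2 a1))
  have h5 : (5 : F) = 0 := by
    have := hA (a + 1) fun e => a1 (by rw [eq_neg_of_add_eq_zero_left e]; norm_num)
    linear_combination (a ^ 2 + 4 * a + 5) * a2 - this
  have : Fact (Nat.Prime 5) := ⟨by norm_num⟩
  have : CharP F 5 := (CharP.charP_iff_prime_eq_zero (by norm_num)).2 (by exact_mod_cast h5)
  have N0 : rf B w w ≠ 0 := rf_ne_zero hw.1 hw.1
  have hem : ∀ j ∈ I, j ≠ m → ∀ s ∈ G0 B, emG j s ∈ DD B w M I m := fun j hj jm s hs =>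
    ⟨emG_mem_MI H hj hs, Com.of_inC (InC.emG jm.symm s)⟩
  have hout : ∀ x ∈ MI M I, ∀ l ∉ I, InC l (cj x (em m (rf B w w'))) := fun x hx l hl =>
    (hx.2 l hl).cj (InC.em (by rintro rfl; exact hl hm) _)
  obtain ⟨u, hu, eu'⟩ := H.f.eich w hw v R.vw
  have hidx : ¬ 5 ∣ ((CG 3 F m).subgroupOf (DD B w M I m)).index := by
    refine not_dvd_index_of _ {x | ∃ j ∈ I, j ≠ m ∧ (x : GG 3 t F) = emG j u} ?_ ?_ ?_
      fun x hx => ?_
    · rintro x ⟨j, -, jm, e⟩
      rw [Subgroup.mem_subgroupOf, e]; exact InC.emG jm.symm u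
    · rintro x ⟨j, -, -, e⟩ y ⟨l, -, -, e'⟩
      refine Subtype.ext ?_
      rw [Subgroup.coe_mul, Subgroup.coe_mul, e, e']
      by_cases jl : j = l
      · rw [jl]
      · exact Units.ext (em_comm jl _ _)
    · rintro x ⟨j, -, -, e⟩
      refine Subtype.ext (Units.ext ?_)
      rw [Subgroup.coe_pow, e, Units.val_pow_eq_pow_val, coe_emG, ← map_pow, eu',
        eu_pow O hw.2 R.vw, Nat.cast_ofNat, h5, zero_smul, eu_zero, map_one]
      rfl
    obtain ⟨x, hxM, hxC⟩ := x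
    obtain ⟨γ, g1, g2, g3⟩ := hxC.exists_gam H.f R (H.le hxM.1) a2
    refine hxC.inC_of_eps H.f R ?_
    rw [g3, gam_zero H.f R (InA.em m (rf B w w')) g1 g2 fun j jm => ?_, mul_zero, add_zero]
    rw [← g3]
    by_cases hj : j ∈ I
    swap
    · exact Com.of_inC (hout x hxM j hj)
    have y1 : InC m ((x⁻¹ * emG j u * x : GG 3 t F) : EE 3 t F) :=
      hx ⟨emG j u, hem j hj jm u hu⟩ ⟨j, hj, jm, rfl⟩
    have y2 : x⁻¹ * emG j u * x ∈ MI M I :=
      mul_mem (mul_mem (inv_mem hxM) (emG_mem_MI H hj hu)) hxM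
    have y3 : ((x⁻¹ * emG j u * x : GG 3 t F) : EE 3 t F) = cj x⁻¹ (em j (eu B w v)) := by
      rw [← eu', ← coe_emG, cj_coe, inv_inv]
    have y4 : (((x⁻¹ * emG j u * x : GG 3 t F) : EE 3 t F) - 1) ^ 2 =
        (-B.f v v) • cj x⁻¹ (em j (rf B w w)) := by
      rw [← map_smul, ← em_eu_sq O hw.2 R.vw, map_pow, map_sub, map_one, y3]
    obtain ⟨l, hl⟩ := hR F t B _ L h5 m.pos (hT (mem_erase y2 y1)) (H.le y2.1) (by
      rw [← map_zero (cj x⁻¹), ← em_eu_cube O hw.2 R.vw j, map_pow, map_sub, map_one, y3])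
    have y5 : InA l (cj x⁻¹ (em j (rf B w w))) := by
      have := ((hl.sub (Sc.one.inA l)).mul (hl.sub (Sc.one.inA l))).smul (-B.f v v)⁻¹
      rwa [← sq, y4, inv_smul_smul₀ (neg_ne_zero.2 R.vv)] at this
    have lm : l ≠ m := by
      rintro rfl
      have := ((y1.sub InC.one).mul (y1.sub InC.one)).smul (-B.f v v)⁻¹
      rw [← sq, y4, inv_smul_smul₀ (neg_ne_zero.2 R.vv)] at this
      exact not_sc_of_sq N0 (N_sq hw) (sc_em.1 (sc_cj.1 (y5.sc this)))
    obtain ⟨b, hb⟩ := y5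
    obtain ⟨z, φ, z0, -, -, hz⟩ := maps_of_cj hw.1 (ph_ne_zero hw.1) hb
    have hz' : z ∈ IsoV B := H59.WrBG.iso_of_le H.le (inv_mem hxM.1) (J := F ∙ w) (fun p hp q hq => by
      obtain ⟨r, rfl⟩ := Submodule.mem_span_singleton.1 hp
      obtain ⟨r', rfl⟩ := Submodule.mem_span_singleton.1 hq
      rw [B.smul_left, B.smul_right, hw.2, mul_zero, mul_zero]) z0 hz.ge
    intro s hs e
    have := congrArg (cj x) ((hz.stIn pw (tr_gam H) (inv_mem hxM.1) hw hz' hw.1 s (H.gam hs) e).comm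
      (InC.em lm (rf B w w')))
    simpa only [map_mul, cj_cj_inv] using this
  obtain ⟨Z, ⟨⟨γ, g1, g2, rfl⟩, g3⟩, hZ⟩ := exists_avg (G := DD B w M I m)
    (fun x => (cj (x : GG 3 t F)).toLinearEquiv.toLinearMap.toAddMonoidHom)
    (fun x y X => cj_mul _ _ X) ((CG 3 F m).subgroupOf (DD B w M I m)) (em m (rf B w w'))
    (fun x hx => InC.cj_em hx _) (WW B w I m) fun x => by
      obtain ⟨γ, g1, g2, g3⟩ := x.2.2.exists_gam H.f R (H.le x.2.1.1) a2
      exact ⟨⟨γ, g1, g2, sub_eq_iff_eq_add'.2 g3⟩, fun l hl =>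
        (hout x x.2.1 l hl).sub (InC.em (by rintro rfl; exact hl hm) _)⟩
  generalize ((CG 3 F m).subgroupOf (DD B w M I m)).index = n at hidx hZ
  rw [← Nat.cast_smul_eq_nsmul F] at hZ
  have hγ : γ = 0 := gam_zero H.f R ((InA.em m (rf B w w')).smul (n : F)) g1 g2 fun l lm => by
    by_cases hl : l ∈ I
    · exact fun s hs _ => (cj_eq_iff _ _ _).1 (hZ ⟨emG l s, hem l hl lm s hs⟩)
    · exact Com.of_inC (((InC.em lm _).smul _).add (g3 l hl))
  have h6 : cj g ((n : F) • em m (rf B w w') + em m (rf B w w) * γ) = _ := hZ ⟨g, hg, hg'⟩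
  rw [hγ, mul_zero, add_zero, map_smul] at h6
  exact hg'.inC_of_eps H.f R
    (smul_right_injective _ (fun e => hidx ((CharP.cast_eq_zero_iff F 5 n).1 e)) h6)

end H59.O3
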