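/- Tensor-induced subgroups: symplectic factors of dimension two, failure of property (Q). -/
import Cfsg.Agent.H60.WrKit
import Cfsg.Agent.H59.WrEnd

set_option autoImplicit false

namespace H59.WrK2
open Cfsg Cfsg.Geo Matrix H19 Module H60 H60.Wr
open scoped MatrixGroups

universe u

variable {F : Type u} [Field F] {k t : ℕ}

theorem in_cj_all {M : Subgroup (GG k t F)} {r : F} {p : Fin t → Mk k F}
    (h : In M (1 + r • pure p)) {s : Fin t → GL (Fin k) F} (hs : ∀ j, s j ∈ Gam M) :
    In M (1 + r • pure fun j => cj (s j) (p j)) := by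
  have key : ∀ T : Finset (Fin t), In M (1 + r • pure fun j =>
      if j ∈ T then cj (s j) (p j) else p j) := fun T => by
    induction T using Finset.induction_on with
    | empty => simpa using h
    | insert i T hi ih =>
      convert ih.cj_pure i (hs i) using 4
      funext j
      by_cases e : j = i
      · subst e; simp [hi]
      · simp [e]
  simpa using key Finset.univ

theorem eps_of_alt {B : Frm (Fin k) F} (hσ : ∀ a, B.σ a = a) (halt : ∀ v, B.f v v = 0)
    {x : Fin k → F} (hx : x ≠ 0) : B.ε = -1 := by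
  obtain ⟨y, hy⟩ := exists_f_one (B := B) hx
  have h1 := halt (y + x)
  rw [B.add_left, B.add_right, B.add_right, halt, halt, B.symm y x, hσ, hy] at h1
  linear_combination h1

theorem nn {B : Frm (Fin k) F} {x : Fin k → F} (h : B.f x x = 0) : rf B x x * rf B x x = 0 := by
  rw [rf_mul_rf, h, zero_smul]

theorem tv_mem {B : Frm (Fin k) F} (hσ : ∀ a, B.σ a = a) (halt : ∀ v, B.f v v = 0)
    (hε : B.ε = -1) (x : Fin k → F) (c : F) : In B.Iso (1 + c • rf B x x) :=
  ⟨un (c • rf B x x) (by rw [smul_mul_smul_comm, nn (halt x), smul_zero]),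
    B.mem_Iso_iff_adj.2 (by
      rw [un_val, un_inv, B.adj_add, B.adj_one, B.adj_smul, adj_rf, hσ, hε, neg_one_smul, smul_neg,
        sub_eq_add_neg]), rfl⟩

theorem sp_tr {B : Frm (Fin k) F} (hσ : ∀ a, B.σ a = a) (halt : ∀ v, B.f v v = 0)
    {x y : Fin k → F} (hx : x ≠ 0) (hy : y ≠ 0) : ∃ s ∈ B.Iso, (s : Mk k F) *ᵥ x = y := by
  have key : ∀ x y, B.f x y ≠ 0 → ∃ s ∈ B.Iso, (s : Mk k F) *ᵥ x = y := fun x' y h => by
    obtain ⟨s, hs, e⟩ := tv_mem hσ halt (eps_of_alt hσ halt hx) (y - x') (B.f x' y)⁻¹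
    refine ⟨s, hs, ?_⟩
    rw [e, add_mulVec, one_mulVec, smul_mulVec, rf_mulVec, B.sub_right, halt, sub_zero,
      inv_smul_smul₀ h, add_sub_cancel]
  obtain ⟨z, h1, h2⟩ := WrEnd.exists_f_two B hx hy
  obtain ⟨s, hs, e⟩ := key x z fun h => h1 (B.eq_zero_comm.1 h)
  obtain ⟨s', hs', e'⟩ := key z y h2
  exact ⟨s' * s, mul_mem hs' hs, by rw [Units.val_mul, ← mulVec_mulVec, e, e']⟩

/-- The shapes `N` on `J` and `1` elsewhere. -/
def st (B : Frm (Fin 2) F) (J : Finset (Fin t)) (x : Fin t → Fin 2 → F) : Fin t → Mk 2 F :=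
  fun j => if j ∈ J then rf B (x j) (x j) else 1

/-- All states with support `J` occur. -/
def DD (B : Frm (Fin 2) F) (M : Subgroup (GG 2 t F)) (J : Finset (Fin t)) : Prop :=
  ∀ x (c : F), In M (1 + c • pure (st B J x))

variable {B : Frm (Fin 2) F} {M : Subgroup (GG 2 t F)} {J J' K : Finset (Fin t)}

theorem dd_of_one (H : K2C B M) {e : Fin t} (he : e ∈ J) {x : Fin t → Fin 2 → F}
    (hx : ∀ j ∈ J, x j ≠ 0) {c : F} (hc : c ≠ 0) (h : In M (1 + c • pure (st B J x))) :
    DD B M J := by
  have h1 : ∀ y, In M (1 + c • pure (st B J y)) := fun y => by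
    by_cases h0 : ∃ j ∈ J, y j = 0
    · obtain ⟨j, hj, h0⟩ := h0
      rw [pure_eq_zero (i := j) (by simp [st, hj, h0]), smul_zero, add_zero]; exact In.one
    push Not at h0
    have : ∀ j, ∃ s ∈ B.Iso, j ∈ J → (s : Mk 2 F) *ᵥ x j = y j := fun j => by
      by_cases hj : j ∈ J
      · obtain ⟨s, hs, e⟩ := sp_tr H.sig H.alt (hx j hj) (h0 j hj)
        exact ⟨s, hs, fun _ => e⟩
      · exact ⟨1, one_mem _, fun h => absurd h hj⟩
    choose s hs hsx using this
    convert in_cj_all h fun j => H.sp (hs j) using 4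
    funext j
    by_cases hj : j ∈ J
    · simp only [st, if_pos hj, cj_rf (hs j), hsx j hj]
    · simp [st, hj]
  have h2 : ∀ y (l : F), In M (1 + (c * l ^ 2) • H19.pure (st B J y)) := fun y l => by
    have e1 : st B J (Function.update y e (l • y e)) =
        Function.update (st B J y) e (l ^ 2 • st B J y e) := by
      funext j
      by_cases hj : j = e
      · subst hj
        simp only [st, if_pos he, Function.update_self, rf_smul_right, H.sig, ro_smul_left,
          smul_smul, pow_two]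
      · simp [st, hj]
    have := h1 (Function.update y e (l • y e))
    rwa [e1, pure_update_smul, Function.update_eq_self, smul_smul] at this
  intro y d
  have h3 : ∀ r s : F, (r • H19.pure (st B J y)) * (s • H19.pure (st B J y)) = 0 := fun r s => by
    rw [pure_smul_mul, pure_eq_zero (i := e) (by simp [st, he, nn (H.alt _)]), smul_zero]
  have h4 := (h2 y ((d / c - 1) / 2)).neg (h3 _ _)
  rw [sub_eq_add_neg, ← neg_smul] at h4
  have h5 := (h2 y ((d / c + 1) / 2)).add_one h4 (h3 _ _)
  rw [← add_smul] at h5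
  convert h5 using 3
  have := H.two
  field_simp
  ring

theorem DD.gen (H : K2C B M) (h : DD B M J) {d : Fin t} (hd : d ∈ J) {p : Fin t → Mk 2 F}
    {w : Fin 2 → F} (h1 : p d = rf B w w)
    (h2 : ∀ j ∈ J, p j ∈ Submodule.span F (Set.range fun x => rf B x x)) (h3 : ∀ j ∉ J, p j = 1) :
    In M (1 + (1 : F) • pure p) := by
  let U : Submodule F (EE 2 t F) :=
    { carrier := {γ | ∀ c : F, c • γ ∈ AA M d (rf B w w) (nn (H.alt w))}
      zero_mem' := fun c => by rw [smul_zero]; exact zero_mem _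
      add_mem' := fun ha hb c => by rw [smul_add]; exact add_mem (ha c) (hb c)
      smul_mem' := fun a γ hγ c => by rw [smul_smul]; exact hγ _ }
  have := WrEnd.ml_mem (pureM F 2 t) U
    (fun j => if j ∈ J.erase d then Set.range fun x => rf B x x else {1}) (fun q hq c => ?_)
    (Function.update p d 1) (fun j => ?_) 1
  · have h4 := this.2
    rwa [mul_smul_comm, show pureM F 2 t _ = H19.pure _ from rfl, em_mul_pure, Function.update_idem,
      Function.update_self, mul_one, ← h1, Function.update_eq_self] at h4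
  · have h4 : ∀ j, ∃ x, j ∈ J.erase d → q j = rf B x x := fun j => by
      by_cases hj : j ∈ J.erase d
      · have := hq j
        rw [if_pos hj] at this
        obtain ⟨x, hx⟩ := this
        exact ⟨x, fun _ => hx.symm⟩
      · exact ⟨0, fun h => absurd h hj⟩
    choose x hx using h4
    have h5 : ∀ j ∉ J.erase d, q j = 1 := fun j hj => by
      have := hq j
      rwa [if_neg hj] at this
    have h6 : q d = 1 := h5 d (by simp)
    refine ⟨(InC.pure h6).smul c, ?_⟩
    rw [mul_smul_comm, show pureM F 2 t q = H19.pure q from rfl, em_mul_pure, h6, mul_one]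
    convert h (Function.update x d w) c using 4
    funext j
    by_cases e : j = d
    · subst e; simp [st, hd]
    by_cases hj : j ∈ J
    · simp [st, e, hj, hx j (by simp [e, hj])]
    · simp [st, e, hj, h5 j (by simp [hj])]
  · split_ifs with hj
    · rw [Function.update_of_ne (Finset.ne_of_mem_erase hj)]
      exact h2 j (Finset.mem_of_mem_erase hj)
    · refine Submodule.subset_span ?_
      by_cases e : j = d
      · subst e; simp
      · simpa [e] using h3 j (by simpa [e] using hj)

theorem DD.comm (H : K2C B M) (h : DD B M J) (h' : DD B M J') {e a : Fin t} (he : e ∈ J)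
    (he' : e ∈ J') (ha : a ∈ J) (ha' : a ∉ J') (hK : ∀ j, j ∈ K ↔ j = e ∨ (j ∈ J ↔ j ∉ J')) :
    DD B M K := by
  have hw : (Pi.single 0 1 : Fin 2 → F) ≠ 0 := by simp
  generalize (Pi.single 0 1 : Fin 2 → F) = w at hw
  obtain ⟨y, hy⟩ := exists_f_one (B := B) hw
  have hy' : B.f w y = -1 := by rw [WrEnd.alt_swap H.alt, hy]
  obtain ⟨X, hX⟩ : ∃ X, X = rf B w y + rf B y w := ⟨_, rfl⟩
  obtain ⟨N, hN⟩ : ∃ N, N = rf B w w := ⟨_, rfl⟩
  have e1 : X * N = -N := by simp [hX, hN, add_mul, rf_mul_rf, H.alt, hy']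
  have e2 : N * X = N := by simp [hX, hN, mul_add, rf_mul_rf, H.alt, hy]
  have e3 : X * X = 1 := by
    have := WrEnd.rf_sub_rf H.sig H.alt y w
    rw [hy, one_smul] at this
    simp [hX, mul_add, add_mul, rf_mul_rf, H.alt, hy, hy', ← this, sub_eq_add_neg, add_comm]
  have e4 : N * N = 0 := hN ▸ nn (H.alt w)
  have sN : N ∈ Submodule.span F (Set.range fun x => rf B x x) := Submodule.subset_span ⟨w, hN.symm⟩
  have sX : X ∈ Submodule.span F (Set.range fun x => rf B x x) := by
    have : X = rf B (w + y) (w + y) - rf B w w - rf B y y := by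
      simp only [hX, rf_add_right, ro_add_left]; abel
    rw [this]
    exact sub_mem (sub_mem (Submodule.subset_span ⟨_, rfl⟩) (Submodule.subset_span ⟨_, rfl⟩))
      (Submodule.subset_span ⟨_, rfl⟩)
  let p : Fin t → Mk 2 F := fun j => if j ∈ J then (if j ∈ J' then X else N) else 1
  let q : Fin t → Mk 2 F := fun j => if j ∈ J' then (if j ∈ J ∧ j ≠ e then X else N) else 1
  have hp := h.gen H ha (p := p) (w := w) (by simp [p, ha, ha', hN])
    (fun j hj => by simp only [p, if_pos hj]; split_ifs <;> assumption) fun j hj => by simp [p, hj]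
  have hq := h'.gen H he' (p := q) (w := w) (by simp [q, he', hN])
    (fun j hj => by simp only [q, if_pos hj]; split_ifs <;> assumption) fun j hj => by simp [q, hj]
  have h1 := hq.comm_pure hp ⟨e, by simp [q, he', e4]⟩ ⟨a, by simp [p, ha, ha', e4]⟩
    ⟨e, by simp [p, q, he, he', e2, e4]⟩ ⟨a, by simp [p, q, ha, ha', e4]⟩
  have h2 : q * p = st B K fun _ => w := by
    funext j
    by_cases hj : j = e
    · subst hj; simp [p, q, st, he, he', hK, e2, hN.symm]
    · by_cases h1 : j ∈ J <;> by_cases h2 : j ∈ J' <;> simp [p, q, st, hK, hj, h1, h2, e3, hN.symm]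
  have h3 : p * q = Function.update (q * p) e ((-1 : F) • (q * p) e) := by
    funext j
    by_cases hj : j = e
    · subst hj; simp [p, q, he, he', e1, e2]
    · by_cases h1 : j ∈ J <;> by_cases h2 : j ∈ J' <;> simp [p, q, hj, h1, h2]
  rw [h3, pure_update_smul, Function.update_eq_self, h2, one_mul, one_smul, neg_one_smul,
    sub_neg_eq_add, ← two_smul F] at h1
  exact dd_of_one H ((hK e).2 (Or.inl rfl)) (fun _ _ => hw) H.two h1

theorem DD.swap (H : K2C B M) (h : DD B M J) (h2 : 2 ≤ J.card) {d u : Fin t} (hd : d ∈ J)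
    (hu : u ∉ J) : DD B M (insert u (J.erase d)) := by
  obtain ⟨e, he, hed⟩ := Finset.exists_mem_ne h2 d
  obtain ⟨σ, h3, s1, s2, s3, s4⟩ := exists_cyc hed.symm (u := u) (by rintro rfl; exact hu he)
    (by rintro rfl; exact hu hd)
  intro x c
  convert (h (x ∘ σ) c).perm_pure H.cyc h3 using 4
  funext j
  have : j ∈ insert u (J.erase d) ↔ σ.symm j ∈ J := by
    by_cases a1 : j = d
    · subst a1; simp [s3, hu]; rintro rfl; exact hu hd
    by_cases a2 : j = e
    · subst a2; simp [s1, hd, he, hed]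
    by_cases a3 : j = u
    · subst a3; simp [s2, he]
    · simp [s4 j a1 a2 a3, a1, a3]
  simp [st, this]

theorem DD.of_card (H : K2C B M) (h2 : 2 ≤ J'.card) : ∀ (n : ℕ) (J : Finset (Fin t)),
    (J' \ J).card = n → J.card = J'.card → DD B M J → DD B M J' := by
  intro n
  induction n with
  | zero =>
    intro J h0 hc h
    rwa [Finset.eq_of_subset_of_card_le (Finset.sdiff_eq_empty_iff_subset.1
      (Finset.card_eq_zero.1 h0)) hc.le]
  | succ n ih =>
    intro J h0 hc h
    obtain ⟨u, hu⟩ := Finset.card_pos.1 (h0 ▸ Nat.succ_pos n : 0 < (J' \ J).card)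
    obtain ⟨d, hd⟩ := Finset.card_pos.1
      (show 0 < (J \ J').card by rw [Finset.card_sdiff_comm hc, h0]; exact Nat.succ_pos n)
    rw [Finset.mem_sdiff] at hu hd
    refine ih _ ?_ ?_ (h.swap H (hc ▸ h2) hd.1 hu.2)
    · have : J' \ insert u (J.erase d) = (J' \ J).erase u := by
        ext j
        simp only [Finset.mem_sdiff, Finset.mem_insert, Finset.mem_erase, not_or, not_and]
        exact ⟨fun h => ⟨h.2.1, h.1, h.2.2 (by rintro rfl; exact hd.2 h.1)⟩,
          fun h => ⟨h.2.1, h.1, fun _ => h.2.2⟩⟩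
      rw [this, Finset.card_erase_of_mem (Finset.mem_sdiff.2 hu), h0]; rfl
    · rw [Finset.card_insert_of_notMem (by simp [hu.2]), Finset.card_erase_add_one hd.1, hc]

theorem isoP (H : K2C B M) : IsoP t (Gam M) ∅ (RN B) := by
  intro j ℬ h1 _ γ hγ hn
  have hε := eps_of_alt H.sig H.alt (x := Pi.single 0 1) (by simp)
  obtain ⟨x, hx⟩ : ∃ x, ct j (ph B x) x γ ≠ 0 := by
    by_contra! h
    refine hn (InC.of_ct fun φ x hφ => ?_)
    obtain ⟨y, rfl⟩ := exists_ph B φ
    by_cases h0 : y = 0
    · simpa [h0] using ct_smul_left j 0 0 x γ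
    obtain ⟨c, rfl⟩ := Submodule.mem_span_singleton.1
      (WrEnd.mem_span_two H.sig H.alt h0 (ph_dot B y x ▸ hφ))
    rw [ct_smul_right, h, smul_zero]
  have x0 : x ≠ 0 := by
    rintro rfl
    exact hx (by simpa using ct_smul_right j (0 : F) _ 0 γ)
  have key : ∀ c : F, c • em j (rf B x x) * γ - γ * c • em j (rf B x x) -
      c • em j (rf B x x) * γ * c • em j (rf B x x) ∈ ℬ := fun c => by
    obtain ⟨s, hs, e⟩ := tv_mem H.sig H.alt hε x c
    have h2 := sub_mem (h1 s (H.sp hs) γ hγ) hγ
    rwa [cj_of_val (X := c • em j (rf B x x)) (by rw [coe_emG, e]; simp)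
      (by rw [smul_mul_smul_comm, ← map_mul, nn (H.alt x), map_zero, smul_zero]),
      add_sub_cancel_left] at h2
  refine ⟨_, ⟨x, ⟨x0, H.alt x⟩, rfl⟩, (-2 : F) • ct j (ph B x) x γ, (ct_inC _ _ _ _).smul _,
    smul_ne_zero (neg_ne_zero.2 H.two) hx, ?_⟩
  convert add_mem (key 1) (key (-1)) using 1
  rw [mul_smul_comm, ← ct_spec]
  simp only [one_smul, neg_smul, neg_mul, mul_neg, two_smul]
  abel

theorem exists_dd (H : K2C B M) (hQ : ¬ QQ M (RN B)) :
    ∃ J : Finset (Fin t), Odd J.card ∧ 2 ≤ J.card ∧ DD B M J := by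
  simp only [QQ, not_forall] at hQ
  obtain ⟨i, _, ⟨w, hw, rfl⟩, γ, h1, h2, h3⟩ := hQ
  obtain ⟨J, p, r, ⟨a, ha⟩, hi, hp, hp', hr, h4⟩ := chain (isoP H)
    (by rintro ⟨x, hx, e⟩; exact rf_ne_zero hx.1 hx.1 e.symm) i (AA M i _ (nn hw.2))
    (fun j hj s hs X hX => cj_mem_AA (mem_Gam.1 hs j) (InC.emG hj.symm s) hX) (by simp)
    (fun X hX => hX.1) ⟨h1, h2⟩ h3
  have : ∀ j, ∃ x, j ∈ J → x ≠ 0 ∧ p j = rf B x x := fun j => by
    by_cases hj : j ∈ J
    · obtain ⟨x, hx, e⟩ := hp j hj
      exact ⟨x, fun _ => ⟨hx.1, e⟩⟩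
    · exact ⟨0, fun h => absurd h hj⟩
  choose x hx using this
  have h5 : Function.update p i (rf B w w) = st B (insert i J) (Function.update x i w) := by
    funext j
    by_cases e : j = i
    · subst e; simp [st]
    by_cases hj : j ∈ J
    · simp [st, e, hj, (hx j hj).2]
    · simp [st, e, hj, hp' j hj]
  have h6 := h4.2
  rw [mul_smul_comm, em_mul_pure, hp' i hi, mul_one, h5] at h6
  have h7 : ∀ j ∈ insert i J, Function.update x i w j ≠ 0 := fun j hj => by
    by_cases e : j = i
    · subst e; simpa using hw.1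
    · simpa [e] using (hx j (by simpa [e] using hj)).1
  refine ⟨insert i J, ?_, ?_, dd_of_one H (Finset.mem_insert_self i J) h7 hr h6⟩
  swap
  · rw [Finset.card_insert_of_notMem hi]
    exact Nat.succ_le_succ (Finset.card_pos.2 ⟨a, ha⟩)
  have hiK := Finset.mem_insert_self i J
  generalize insert i J = K at h6 h7 hiK
  generalize Function.update x i w = y at h6 h7
  have hε := eps_of_alt H.sig H.alt hw.1
  have h8 : H19.pure (st B K y) ≠ 0 := pure_ne_zero fun j => by
    by_cases hj : j ∈ K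
    · simpa [st, hj] using ⟨h7 j hj, ph_ne_zero (h7 j hj)⟩
    · simp [st, hj]
  rw [← Nat.not_even_iff_odd]
  intro hK
  have h9 : (B.pow t).adj (H19.pure (st B K y)) = H19.pure (st B K y) := by
    rw [B.adj_pow_pure, show (fun j => B.adj (st B K y j)) =
      fun j => (if j ∈ K then (-1 : F) else 1) • st B K y j from funext fun j => by
        by_cases hj : j ∈ K <;> simp [st, hj, adj_rf, hε], pure_smul, Finset.prod_ite_mem,
      Finset.univ_inter, Finset.prod_const, hK.neg_one_pow, one_smul]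
  obtain ⟨e, he⟩ : ∃ e, e ∈ K := ⟨_, hiK⟩
  have h10 := ((dd_of_one H he h7 hr h6 y 1).mono H.le).skew (by
    rw [pure_smul_mul, pure_eq_zero (i := e) (by simp [st, he, nn (H.alt _)]), smul_zero])
  rw [one_smul, h9, eq_neg_iff_add_eq_zero, ← two_smul F] at h10
  exact h8 ((smul_eq_zero.1 h10).resolve_left H.two)

theorem jobK2Q : JobK2Q.{u} := by
  intro F _ _ t B M H hQ
  obtain ⟨J, h1, h2, h3⟩ := exists_dd H hQ
  have fin : Odd t → DD B M Finset.univ → (Odd t ∧ AllN B M Set.univ) ∨ (Even t ∧ AllO B M) :=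
    fun ht h => Or.inl ⟨ht, fun x _ c _ => by
      convert h x c using 4
      funext j; simp [st]⟩
  by_cases hJ : J = Finset.univ
  · subst hJ
    exact fin (by simpa using h1) h3
  obtain ⟨u, hu⟩ : ∃ u, u ∉ J := by
    by_contra! h; exact hJ (Finset.eq_univ_iff_forall.2 h)
  obtain ⟨e, he, a, ha, hea⟩ := Finset.one_lt_card.1 h2
  have hau : a ≠ u := by rintro rfl; exact hu ha
  have heu : e ≠ u := by rintro rfl; exact hu he
  have h4 : DD B M {e, a, u} := h3.comm H (h3.swap H h2 ha hu) he (by simp [he, hea]) ha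
    (by simp [hau]) fun j => by
      by_cases a1 : j = e
      · simp [a1]
      by_cases a2 : j = a
      · simp [a2, ha, hau]
      by_cases a3 : j = u
      · simp [a3, hu]
      · simp [a1, a2, a3]
  have h5 : ∀ K : Finset (Fin t), K.card = 3 → DD B M K := fun K hK =>
    DD.of_card H (by omega) _ _ rfl
      (by rw [hK, Finset.card_eq_three]; exact ⟨_, _, _, hea, heu, hau, rfl⟩) h4
  have h6 : ∀ r, ∀ K : Finset (Fin t), K.card = 2 * r + 3 → DD B M K := by
    intro r
    induction r with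
    | zero => exact h5
    | succ r ih =>
      intro K hK
      obtain ⟨u, hu, v, hv, huv⟩ := Finset.one_lt_card.1 (show 1 < K.card by omega)
      have hc : ((K.erase u).erase v).card = 2 * r + 3 := by
        rw [Finset.card_erase_of_mem (by simp [hv, huv.symm]), Finset.card_erase_of_mem hu]; omega
      obtain ⟨e, he, a, ha, hea⟩ := Finset.one_lt_card.1
        (show 1 < ((K.erase u).erase v).card by omega)
      have he' := he
      have ha' := ha
      simp only [Finset.mem_erase] at he' ha'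
      refine (ih _ hc).comm H
        (h5 {e, u, v} (Finset.card_eq_three.2 ⟨_, _, _, he'.2.1, he'.1, huv, rfl⟩)) he (by simp) ha (by simp [hea.symm, ha'.1, ha'.2.1]) fun j => ?_
      by_cases a1 : j = e
      · simp [a1, he'.2.2]
      by_cases a2 : j = u
      · simp [a2, hu]
      by_cases a3 : j = v
      · simp [a3, hv]
      · simp [a1, a2, a3]
  have t3 := H.t3
  rcases Nat.even_or_odd t with ht | ht
  · refine Or.inr ⟨ht, fun d x c => ?_⟩
    obtain ⟨r, hr⟩ := ht
    convert h6 (r - 2) (Finset.univ.erase d) (by simp; omega) x c using 4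
    funext j
    by_cases e : j = d
    · subst e; simp [st]
    · simp [st, e]
  · obtain ⟨r, hr⟩ := id ht
    exact fin ht (h6 (r - 1) _ (by simp; omega))

end H59.WrK2
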