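/- Tensor-induced subgroups: symplectic factors of dimension two, property (Q). -/
import Cfsg.Agent.H59.WrK2
import Cfsg.Agent.H70.Quad2

set_option autoImplicit false
set_option linter.unusedSimpArgs false

namespace H59.WrK2
open Cfsg Cfsg.Geo Matrix H19 Module H60 H60.Wr
open scoped MatrixGroups

universe u

variable {F : Type u} [Field F]

section ring
variable {ι : Type} [Fintype ι] [DecidableEq ι] {M : Subgroup (GL ι F)} {a b : Matrix ι ι F}

/-- The family `1 + c X` lies in `M`. -/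
def Fam (M : Subgroup (GL ι F)) (X : Matrix ι ι F) : Prop := X * X = 0 ∧ ∀ c : F, In M (1 + c • X)

theorem Fam.one (h : Fam M a) : In M (1 + a) := by simpa using h.2 1

theorem Fam.cj (h : Fam M a) {g : GL ι F} (hg : g ∈ M) : Fam M (cj g a) :=
  ⟨by rw [← map_mul, h.1, map_zero], fun c => by simpa using (h.2 c).cj_one_add hg⟩

theorem Fam.neg (h : Fam M a) : Fam M (-a) :=
  ⟨by rw [neg_mul_neg, h.1], fun c => by simpa using h.2 (-c)⟩

theorem Fam.move (ha : Fam M a) (hb : Fam M b) : Fam M (a + (b * a - a * b - b * a * b)) := by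
  obtain ⟨g, hg, e⟩ := hb.one
  exact cj_of_val e hb.1 a ▸ ha.cj hg

theorem Fam.four (ha : Fam M a) (hb : Fam M b) (h : a * b * a * b * a = 0) :
    In M (1 + (4 : F) • (a * b * a)) := by
  have aa : ∀ x, a * (a * x) = 0 := fun x => by rw [← mul_assoc, ha.1, zero_mul]
  have bb : ∀ x, b * (b * x) = 0 := fun x => by rw [← mul_assoc, hb.1, zero_mul]
  have h0 : a * (b * (a * (b * a))) = 0 := by simpa only [mul_assoc] using h
  have h1 : ∀ x, a * (b * (a * (b * (a * x)))) = 0 := fun x => by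
    simpa only [mul_assoc, zero_mul] using congrArg (· * x) h0
  have k1 := ha.move hb
  have k2 := (ha.move hb.neg).neg
  have := (ha.one.comm k1.one ha.1 k1.1 (by
      simp only [mul_add, add_mul, mul_sub, sub_mul, mul_assoc, ha.1, hb.1, aa, bb, h0, h1,
        mul_zero, zero_mul]
      abel) (by
      simp only [mul_add, add_mul, mul_sub, sub_mul, mul_assoc, ha.1, hb.1, aa, bb, h0, h1,
        mul_zero, zero_mul]
      abel)).add_one (ha.one.comm k2.one ha.1 k2.1 (by
      simp only [mul_add, add_mul, mul_sub, sub_mul, mul_assoc, ha.1, hb.1, aa, bb, h0, h1,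
        mul_zero, zero_mul, mul_neg, neg_mul]
      abel) (by
      simp only [mul_add, add_mul, mul_sub, sub_mul, mul_assoc, ha.1, hb.1, aa, bb, h0, h1,
        mul_zero, zero_mul, mul_neg, neg_mul]
      abel)) (by
      simp only [mul_add, add_mul, mul_sub, sub_mul, mul_assoc, ha.1, hb.1, aa, bb, h0, h1,
        mul_zero, zero_mul, mul_neg, neg_mul]
      abel)
  convert this using 2
  rw [show (4 : F) = 1 + 1 + 1 + 1 by norm_num]
  simp only [mul_add, add_mul, mul_sub, sub_mul, mul_assoc, ha.1, hb.1, aa, bb, h0, h1, mul_zero,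
    mul_neg, neg_mul, add_smul, one_smul]
  abel

/-- The Fitting step: `C` is a subalgebra centralising `a` with `a C ∩ (M - 1) ⊆ F a`. -/
theorem Fam.fit (hF : H70.BigField F) (ha : Fam M a) (hb : Fam M b) (C : Subalgebra F (Matrix ι ι F))
    (hC : ∀ c ∈ C, In M (1 + a * c) → Sc c) {γ : Matrix ι ι F} (hγ : γ ∈ C)
    (e : a * b * a = a * γ) : Sc γ ∨ ∃ n, a * γ ^ n = 0 := by
  let T : Matrix ι ι F ≃ₐ[F] Module.End F (ι → F) := toLinAlgEquiv'
  let G := M.map (Units.map (T : Matrix ι ι F →* Module.End F (ι → F)))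
  have h1 : ∀ X, T X ∈ H70.gS G ↔ In M X := fun X =>
    ⟨fun ⟨_, ⟨m, hm, rfl⟩, h⟩ => ⟨m, hm, T.injective h⟩,
      fun ⟨m, hm, h⟩ => ⟨_, ⟨m, hm, rfl⟩, congrArg T h⟩⟩
  have h2 : ∀ {X}, Fam M X → H70.QE G (T X) := fun h =>
    ⟨by rw [← map_mul, h.1, map_zero], fun c => by simpa using (h1 _).2 (h.2 c)⟩
  obtain ⟨ε, δ, Ft⟩ := H70.exists_fit (h2 ha).sq (h2 hb).sq
  have hz : (T a * T b + T b * T a) * T a = T (a * γ) := by
    rw [H70.gam_left Ft.aa, ← map_mul, ← map_mul, e]
  have h3 : ∀ r ∈ Algebra.adjoin F {T a * T b + T b * T a}, ∃ c ∈ C, r * T a = T (a * c) := by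
    intro r hr
    induction hr using Algebra.adjoin_induction with
    | mem x hx => exact ⟨γ, hγ, by rw [hx, hz]⟩
    | algebraMap c => exact ⟨_, C.algebraMap_mem c, by simp [Algebra.algebraMap_eq_smul_one]⟩
    | add x y _ _ hx hy =>
      obtain ⟨c, hc, h⟩ := hx
      obtain ⟨d, hd, h'⟩ := hy
      exact ⟨c + d, add_mem hc hd, by rw [add_mul, h, h', mul_add, map_add]⟩
    | mul x y _ _ hx hy =>
      obtain ⟨c, hc, h⟩ := hx
      obtain ⟨d, hd, h'⟩ := hy
      exact ⟨c * d, mul_mem hc hd, by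
        rw [mul_assoc, h', map_mul, ← mul_assoc, h, ← map_mul, mul_assoc]⟩
  have h4 : ∀ r ∈ Algebra.adjoin F {T a * T b + T b * T a}, ∀ c ∈ C, r * ε * T a = T (a * c) →
      Sc c := fun r hr c hc h => hC c hc ((h1 _).1 (by
    simpa [h] using (Ft.mem_rootSp hF (h2 ha) (h2 hb) hr).1 1))
  obtain ⟨c, hc, h5⟩ := h3 ε Ft.ε_mem
  obtain ⟨r, rfl⟩ := h4 1 (one_mem _) c hc (by rwa [one_mul])
  rw [mul_smul_comm, mul_one, map_smul] at h5
  have h6 : (r * r) • T a = r • T a := by
    rw [mul_smul, ← h5, ← mul_smul_comm, ← h5, ← mul_assoc, Ft.idem]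
  by_cases h7 : ε * T a = T a
  · exact Or.inl (h4 _ (Algebra.self_mem_adjoin_singleton F _) γ hγ (by rw [mul_assoc, h7, hz]))
  have h8 : ε * T a = 0 := by
    by_cases r0 : r = 0
    · rw [h5, r0, zero_smul]
    · exact absurd (h5.trans (smul_right_injective _ r0 (by simpa only [smul_smul] using h6))) h7
  obtain ⟨n, hn⟩ := Ft.nil
  refine Or.inr ⟨n, T.injective ?_⟩
  have h9 : ∀ j, (T a * T b + T b * T a) ^ j * T a = T (a * γ ^ j) := fun j => by
    induction j with
    | zero => simp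
    | succ j ih => rw [pow_succ, mul_assoc, hz, map_mul, ← mul_assoc, ih, ← map_mul, mul_assoc,
        pow_succ]
  rw [← h9, ← hn, mul_assoc, h9, map_mul, ← mul_assoc, h8, zero_mul, map_zero]

end ring

variable {t : ℕ} {B : Frm (Fin 2) F} {M : Subgroup (GG 2 t F)}

theorem fam_root (H : K2C B M) (i : Fin t) (w : Fin 2 → F) : Fam M (em i (rf B w w)) := by
  refine ⟨by rw [← map_mul, nn (H.alt w), map_zero], fun c => ?_⟩
  simpa using ((tv_mem H.sig H.alt (eps_of_alt H.sig H.alt (x := Pi.single 0 1) (by simp)) w c).mono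
    H.sp).em_one_add i

theorem sc_ct (H : K2C B M) (hQ : QQ M (RN B)) (i : Fin t) (w : Fin 2 → F) {b : EE 2 t F}
    (hb : Fam M b) : Sc (ct i (ph B w) w b) := by
  by_cases hw : w = 0
  · subst hw
    rw [show ct i (ph B 0) 0 b = 0 by simpa using ct_smul_right i (0 : F) _ 0 b]; exact Sc.zero
  have ha := fam_root H i w
  have hQ' := hQ i _ ⟨w, ⟨hw, H.alt w⟩, rfl⟩
  have a0 := rf_ne_zero (B := B) hw hw
  have key : ∀ n, ∀ (b γ : EE 2 t F), Fam M b → InC i γ →
      em i (rf B w w) * b * em i (rf B w w) = em i (rf B w w) * γ → γ ^ n = 0 → γ = 0 := by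
    generalize ha' : em i (rf B w w) = a at ha hQ'
    have hc : ∀ {γ}, InC i γ → a * γ = γ * a := fun h => ha' ▸ h _
    intro n
    induction n using Nat.strong_induction_on with
    | _ n ih =>
    intro b γ hb hγ e hn
    have e2 : a * b * a * b * a = a * (γ * γ) := by
      rw [e, hc hγ, mul_assoc, mul_assoc, ← mul_assoc a, e, ← mul_assoc, ← hc hγ, mul_assoc]
    have h2 : γ * γ = 0 := by
      by_cases h3 : n ≤ 2
      · rw [← pow_two, pow_eq_zero_of_le h3 hn]
      · refine neg_eq_zero.1 (ih (n - 1) (by omega) _ _ (ha.move hb) (hγ.mul hγ).neg ?_ ?_)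
        · rw [mul_neg, ← e2]
          simp only [mul_add, add_mul, mul_sub, sub_mul, ← mul_assoc, ha.1, zero_mul]
          simp only [mul_assoc, ha.1, mul_zero]
          abel
        · rw [neg_pow, ← pow_two, ← pow_mul, pow_eq_zero_of_le (by omega) hn, mul_zero]
    have h4 := ha.four hb (by rw [e2, h2, mul_zero])
    rw [e, ← mul_smul_comm] at h4
    exact (Sc.of_smul (by rw [show (4 : F) = 2 * 2 by norm_num]; exact mul_ne_zero H.two H.two)
      (hQ' _ (hγ.smul 4) h4)).eq_zero h2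
  rcases ha.fit ⟨H.two, H.big⟩ hb (Subalgebra.centralizer F (Set.range (em i)))
    (fun c hc => hQ' c fun a => hc _ ⟨a, rfl⟩) (γ := ct i (ph B w) w b)
    (by rintro _ ⟨a, rfl⟩; exact ct_inC _ _ _ _ a) (ct_spec _ _ _ _ _ _) with h | ⟨n, h⟩
  · exact h
  · have hn : InC i (ct i (ph B w) w b ^ n) := fun a => (Commute.pow_right (ct_inC _ _ _ _ a) n)
    rw [key n b _ hb (ct_inC _ _ _ _) (ct_spec _ _ _ _ _ _) ((T2 hn h).resolve_left a0)]
    exact Sc.zero

theorem exists_inA (H : K2C B M) (hQ : QQ M (RN B)) {b : EE 2 t F} (hb : Fam M b) :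
    ∃ j, InA j b := by
  have hw : (Pi.single 0 1 : Fin 2 → F) ≠ 0 := by simp
  generalize (Pi.single 0 1 : Fin 2 → F) = w at hw
  obtain ⟨y, hy⟩ := exists_f_one (B := B) hw
  have h1 := WrEnd.rf_sub_rf H.sig H.alt y w
  rw [hy, one_smul] at h1
  by_contra! hn
  refine hn ⟨0, by have := H.t3; omega⟩ ((sc_of_inC fun i => ?_).inA _)
  have h2 : em i (rf B y w) - em i (rf B w y) = (1 : EE 2 t F) := by rw [← map_sub, h1, map_one]
  have h3 := ((sc_ct H hQ i (w + y) hb).sub (sc_ct H hQ i w hb)).sub (sc_ct H hQ i y hb)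
  rw [ph_add, ct_add_left, ct_add_right, ct_add_right] at h3
  obtain ⟨a, ha⟩ : InA i (b - ct i (ph B w) y b) := by
    convert (((InA.em i (rf B w y)).mul (h3.inA i)).sub ((InA.em i (rf B y y)).mul
      ((sc_ct H hQ i w hb).inA i))).sub ((InA.em i (rf B w w)).mul ((sc_ct H hQ i y hb).inA i))
      using 1
    have e1 : b = (em i (rf B y w) - em i (rf B w y)) * b * (em i (rf B y w) - em i (rf B w y)) := by
      rw [h2, one_mul, mul_one]
    have e2 : ct i (ph B w) y b = (em i (rf B y w) - em i (rf B w y)) * ct i (ph B w) y b := by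
      rw [h2, one_mul]
    simp only [sub_mul, mul_sub, ct_spec, mul_add, rf] at e1 e2 ⊢
    linear_combination (norm := abel) e1 - e2
  have hc := ct_inC i (ph B w) y b
  generalize ct i (ph B w) y b = c at ha hc
  obtain rfl : b = em i a + c := by rw [← ha, sub_add_cancel]
  by_cases hs : Sc a
  · exact ((sc_em.2 hs).inC i).add hc
  obtain ⟨l, l1, l2⟩ := exists_fun_of_not_sc hs
  obtain ⟨L, -, hL⟩ := exists_lam i l
  have h4 : em i (a * a) * 1 + (2 : F) • (em i a * c) + em i 1 * (c * c) = 0 := by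
    rw [← hb.1, two_smul, map_mul, map_one, add_mul, mul_add, mul_add, hc]; noncomm_ring
  have h5 := congrArg L h4
  rw [map_add, map_add, map_smul, hL _ _ InC.one, hL _ _ hc, hL _ _ (hc.mul hc), l1, l2, zero_smul,
    add_zero, one_smul, map_zero] at h5
  exact absurd ((InA.em i a).add ((Sc.of_smul H.two ⟨-l (a * a), by
    rw [neg_smul, eq_neg_iff_add_eq_zero, add_comm, h5]⟩).inA i)) (hn i)

theorem jobK2R : JobK2R.{u} := by
  intro F _ _ t B M H hQ g hg
  refine mem_T_of le_rfl (by have := H.t3; omega) fun i => ?_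
  have hw : (Pi.single 0 1 : Fin 2 → F) ≠ 0 := by simp
  generalize (Pi.single 0 1 : Fin 2 → F) = w at hw
  obtain ⟨y, hy⟩ := exists_f_one (B := B) hw
  have hy' : B.f w y = -1 := by rw [WrEnd.alt_swap H.alt, hy]
  have y0 : y ≠ 0 := by rintro rfl; simp at hy
  obtain ⟨j, hj⟩ := exists_inA H hQ ((fam_root H i w).cj hg)
  obtain ⟨j', hj'⟩ := exists_inA H hQ ((fam_root H i y).cj hg)
  obtain rfl : j = j' := by
    by_contra e
    have h1 := hj.comm (hj'.inC e)
    simp only [← map_mul] at h1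
    rw [EmbeddingLike.apply_eq_iff_eq, em_inj, rf_mul_rf, rf_mul_rf, hy, hy'] at h1
    have h2 := congrArg (· * rf B w w) h1
    simp only [smul_mul_assoc, rf_mul_rf, hy', H.alt, zero_smul, smul_zero, one_smul] at h2
    exact rf_ne_zero hw hw (by simpa using h2)
  refine ⟨j, fun a => ?_⟩
  have h1 := WrEnd.rf_sub_rf H.sig H.alt y w
  rw [hy, one_smul] at h1
  have h2 : a = (-B.f (a *ᵥ y) w) • (rf B y y * rf B w w) - B.f (a *ᵥ w) w • rf B y y -
      B.f (a *ᵥ y) y • rf B w w + B.f (a *ᵥ w) y • (rf B w w * rf B y y) := by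
    conv_lhs => rw [← mul_one a, ← one_mul (a * 1), ← h1]
    simp only [sub_mul, mul_sub, mul_ro, sub_mulVec, rf_mulVec, ro_sub_left, ro_smul_left, hy, hy',
      rf, ro_mulVec, ph_dot]
    module
  rw [h2]
  simp only [map_add, map_sub, map_smul, map_mul]
  exact ((((hj'.mul hj).smul _).sub (hj'.smul _)).sub (hj.smul _)).add ((hj.mul hj').smul _)

end H59.WrK2
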